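import Cfsg.Agent.BN2.E

/-! Split polygons: central involutions at an exceptional vertex. -/

set_option autoImplicit false
set_option linter.unusedSectionVars false

namespace CF.BN2
open Subgroup MulAction Cfsg CF.BG

theorem comm_le4 {H : Type*} [Group H] [Finite H] (h : Nat.card H ≤ 4) (a b : H) : a * b = b * a := by
  have h0 := Nat.card_pos (α := H)
  have pr : ∀ p, p.Prime → Nat.card H = p → a * b = b * a := fun p hp e => by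
    haveI := Fact.mk hp
    haveI := isCyclic_of_prime_card e
    exact mul_comm' a b
  obtain e | e | e | e : Nat.card H = 1 ∨ Nat.card H = 2 ∨ Nat.card H = 3 ∨ Nat.card H = 4 := by omega
  · haveI := (Nat.card_eq_one_iff_unique.1 e).1; exact Subsingleton.elim _ _
  · exact pr 2 Nat.prime_two e
  · exact pr 3 Nat.prime_three e
  · haveI := Fact.mk Nat.prime_two
    exact IsPGroup.commutative_of_card_eq_prime_sq (p := 2) e a b

variable {G V : Type*} [Group G] [MulAction G V]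

namespace SPoly
open Poly
variable [Finite G] {P : SPoly G V} {x x' : ℤ → V} {y z v w : V} {a b c d g h : G}

variable (P) in
/-- consequences of the local classification -/
structure Fh : Prop where
  t0 : ∀ {x : ℤ → V} {g : G}, P.Fr x → Fm g (x 0) (x 1) → Fa g x → g = 1
  dich : ∀ {x : ℤ → V}, P.Fr x → ¬ P.Reg (x 0) → P.Exc (x 0)
  card : ∀ {x : ℤ → V}, P.Fr x → ∀ i, ¬ P.Reg (x i) → Nat.card {w // P.adj (x i) w} = 9
  cube : ∀ {x : ℤ → V} {v w : V} {a b : G}, P.Fr x → ∀ i, ¬ P.Reg (x i) → P.adj (x i) v → P.adj (x i) w → Fm a (x i) v →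
    Fm b (x i) w → a * a = 1 → b * b = 1 → (∀ z, P.adj (x i) z → z ≠ v → a • z ≠ z) →
    (∀ z, P.adj (x i) z → z ≠ w → b • z ≠ z) → (a * b) ^ 3 ∈ P.K (x i)

theorem av (fh : P.Fh) (hx : P.Fr x) (i : ℤ) (n : ¬ P.Reg (x i)) (l : List V) (hl : l.length ≤ 8 := by simp) :
    ∃ v, P.adj (x i) v ∧ v ∉ l := by
  classical
  by_contra! q
  have := Nat.card_le_card_of_injective (fun a : {w // P.adj (x i) w} => (⟨a.1, List.mem_toFinset.2 (q _ a.2)⟩ : l.toFinset))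
    fun a b e => Subtype.ext (congrArg Subtype.val e :)
  rw [fh.card hx i n, Nat.card_eq_fintype_card, Fintype.card_coe] at this
  have := l.toFinset_card_le
  omega

theorem tv (fh : P.Fh) (hx : P.Fr x) {s t : ℤ} (f : Fx g x s t) {k l : ℤ} (m : Fm g (x k) (x l))
    (e : s + P.n + 1 ≤ t ∧ (l = k + 1 ∨ l = k - 1) := by omega) : g = 1 :=
  have a := ap hx f e.1
  fh.t0 hx (move hx (a.fx (min (min k l) 0) (max (max k l) 1)) m 0 1) a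

theorem tvU (fh : P.Fh) (hx : P.Fr x) {s t : ℤ} (f : Fx g x s t) {k l : ℤ} (m : Fm g (x k) (x l)) (j : ℤ)
    (p : P.adj (x t) y) (q : y ≠ x j) (r : g • y = y)
    (e : j = t - 1 ∧ s + P.n ≤ t ∧ (l = k + 1 ∨ l = k - 1) ∧ s ≤ k ∧ s ≤ l ∧ k ≤ t ∧ l ≤ t := by omega) : g = 1 := by
  have := P.three
  obtain ⟨x', h', e', f'⟩ := exU hx t j (t + 1) p q
  refine tv fh h' (((f.mono (c := t - P.n) (d := t)).congr e').up (t + 1) (f' ▸ r)) (k := t - 1) (l := t) ?_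
  rw [e' _ (by omega) (by omega), e' _ (by omega) (by omega)]
  exact move hx f m _ _

theorem tvD (fh : P.Fh) (hx : P.Fr x) {s t : ℤ} (f : Fx g x s t) {k l : ℤ} (m : Fm g (x k) (x l)) (j : ℤ)
    (p : P.adj (x s) y) (q : y ≠ x j) (r : g • y = y)
    (e : j = s + 1 ∧ s + P.n ≤ t ∧ (l = k + 1 ∨ l = k - 1) ∧ s ≤ k ∧ s ≤ l ∧ k ≤ t ∧ l ≤ t := by omega) : g = 1 := by
  have := P.three
  obtain ⟨x', h', e', f'⟩ := exD hx s j (s - 1) p q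
  refine tv fh h' (((f.mono (c := s) (d := s + P.n)).congr e').down (s - 1) (f' ▸ r)) (k := s) (l := s + 1) ?_
  rw [e' _ (by omega) (by omega), e' _ (by omega) (by omega)]
  exact move hx f m _ _

theorem uq (fh : P.Fh) (hx : P.Fr x) {s t : ℤ} (X : P.Exc (x t)) (fa : Fx a x s t) (fb : Fx b x s t) {k l : ℤ}
    (ma : Fm a (x k) (x l)) (mb : Fm b (x k) (x l)) (a2 : a * a = 1) (b2 : b * b = 1) (a1 : a ≠ 1) (b1 : b ≠ 1)
    (e : t = s + P.n ∧ (l = k + 1 ∨ l = k - 1) ∧ s ≤ k ∧ s ≤ l ∧ k ≤ t ∧ l ≤ t := by omega) : a = b := by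
  have := P.three
  have q := X.e1 (ad hx t (t - 1)) (move hx fa ma _ _) (move hx fb mb _ _) a2 b2
    (fun w p n r => a1 (tvU fh hx fa ma (t - 1) p n r)) fun w p n r => b1 (tvU fh hx fb mb (t - 1) p n r)
  have := tvU fh hx (fa.mul fb) (ma.mul mb) (t - 1) (ad hx t (t + 1)) (ne hx _ _) (K.up q hx _)
  rw [eq_inv_of_mul_eq_one_left this, inv_eq_of_mul_eq_one_right b2]

theorem fr2 (hx : P.Fr x) (i : ℤ) (s : P.adj (x i) v) (t : P.adj (x i) w) (n : w ≠ v) :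
    ∃ x', P.Fr x' ∧ x' 0 = x i ∧ x' 1 = v ∧ x' (-1) = w := by
  have := P.three
  obtain ⟨x', h', e, rfl⟩ := exF hx i s
  obtain ⟨y, h, e', rfl⟩ := exD h' 0 1 (-1) (e ▸ t) n
  exact ⟨y, h, (e' 0 (by omega) (by omega)).trans e, e' 1 (by omega) (by omega), rfl⟩

theorem Two.alt (fh : P.Fh) (T : P.Two x) (h : P.Fr x') (i : ℤ) (r : ¬ P.Reg (x' i)) (o : i % 2 = 0 := by omega) : P.Two x' := by
  have hx := T.fr
  obtain ⟨g, c, e⟩ := P.conn hx h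
  have c2 : c % 2 = 0 := by_contra fun q => r (by rw [e, Reg.cj_iff]; exact T.odd _)
  have nr : ∀ k, k % 2 = 0 → ¬ P.Reg (x' k) := fun k p q => r (q.par h _ _)
  exact ⟨h, fun k p => by rw [e, Reg.cj_iff]; exact T.odd _,
    fun k p => by simpa using fh.dich (P.shift k h) (by simpa using nr k p), nr⟩

theorem Two.alt0 (T : P.Two x) (fh : P.Fh) (h : P.Fr x') (e : x' 0 = x 0) : P.Two x' := T.alt fh h 0 (e ▸ T.nr 0)

variable (P) in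
/-- nontrivial action at the far vertices -/
def Nt (c : G) (y v : V) (k : ℤ) : Prop := ∀ x', P.Fr x' → x' 0 = y → x' 1 ≠ v → c ∉ P.K (x' k)

theorem Nt.cj {k : ℤ} (N : P.Nt c y v k) (g : G) : P.Nt (g * c * g⁻¹) (g • y) (g • v) k := fun x' h' e n q =>
  N _ (P.smul g⁻¹ h') (by simp [e]) (fun r => n (by simp [← r])) (K.of_cj (by simpa [mul_assoc] using q))

theorem Nt.nm {k : ℤ} (N : P.Nt c y v k) (s : g • y = y) : P.Nt (g * c * g⁻¹) y (g • v) k := by simpa [s] using N.cj g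

theorem near (hx : P.Fr x) (hc : Zm c (x 0) (x 1)) (k : ℤ) (e : 1 ≤ k ∧ P.n = 2 * k + 2 := by omega) : c ∈ P.K (x k) :=
  ballK hx 1 (ad hx 1 0) hc.symm k

theorem tr_or (hx : P.Fr x) (s : P.adj (x 0) v) (hc : Zm c (x 0) v) (k : ℤ) (e : 1 ≤ k ∧ P.n = 2 * k + 2 := by omega) :
    P.Nt c (x 0) v k ∨ ∀ x', P.Fr x' → x' 0 = x 0 → c ∈ P.K (x' k) := by
  refine or_iff_not_imp_left.2 fun N x'' h'' e'' => ?_
  simp only [Nt, not_forall, not_not] at N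
  obtain ⟨x', h', e', n, q⟩ := N
  by_cases o : x'' 1 = v
  · exact near h'' (by rwa [e'', o]) k
  rw [← e'] at s hc e''
  obtain ⟨x0, h0, e0, rfl⟩ := exD h' 0 1 (-1) s (Ne.symm n)
  obtain ⟨x1, h1, e1, f1⟩ := exD h'' 0 1 (-1) (e'' ▸ s) (Ne.symm o)
  have z0 : x0 0 = x' 0 := e0 0 le_rfl (by omega)
  have z1 : x1 0 = x'' 0 := e1 0 le_rfl (by omega)
  obtain ⟨u, a, b⟩ := trans (P.shift (-1) h0) (P.shift (-1) h1) (by simpa using f1) (by simp [z0, z1, e''])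
  simp only [zero_add, show (1 : ℤ) + -1 = 0 by omega, z0] at a
  have := b (k + 1) (by omega) (by omega)
  simp only [add_neg_cancel_right] at this
  rw [← e1 k (by omega) (by omega), ← this, ← hc.symm.cj_eq a, e0 k (by omega) (by omega)]
  exact K.cj q u

theorem fpf (hx : P.Fr x) (s : P.adj (x 0) v) (n : v ≠ x 1) (hc : Zm c (x 0) v) (k : ℤ) (q : c ∉ P.K (x k))
    (e : 1 ≤ k ∧ 2 * k < P.n := by omega) : ∀ w, P.adj (x k) w → w ≠ x (k - 1) → c • w ≠ w := by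
  obtain ⟨x0, h0, e0, rfl⟩ := exD hx 0 1 (-1) s n
  have z0 : x0 0 = x 0 := e0 0 le_rfl (by omega)
  have fc : Fx c x 0 k := fun j p q => ball hx 0 s hc j
  have := allnone h0 (z0 ▸ hc.symm) k (k - 1) (by rw [e0 _ (by omega) (by omega)]; exact fc.at _)
    (by rw [e0 _ (by omega) (by omega)]; exact fc.at _)
  rw [e0 k (by omega) (by omega), e0 (k - 1) (by omega) (by omega)] at this
  exact this.resolve_left q

theorem cl1 (hx : P.Fr x) (s : P.adj (x 0) v) (n : v ≠ x 1) (hc : Zm c (x 0) v) (hg : Fm g (x 0) (x 1)) (k : ℤ)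
    (R : P.Reg (x k)) (e : 1 ≤ k ∧ 2 * k < P.n := by omega) : c * (g * c * g⁻¹) ∈ P.K (x k) := by
  obtain ⟨u, a2, a3, rfl⟩ := trD hx P.n 0 1 (-1) 0 1 s n
  obtain ⟨u', b2, b3, e'⟩ := trD hx P.n 0 1 (-1) 0 1 (adj_fix hg.l s) fun o => n (MulAction.injective g (o.trans hg.r.symm))
  have fu := b3.mul a3.inv
  have := hc.cj_eq (step hx 0 (ad hx 0 1) s ((b2.mul a2.inv).inv.mul hg) (by
    rw [mul_smul, inv_smul_eq_iff, mul_smul, inv_smul_smul, e']))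
  rw [show g * c * g⁻¹ = u' * u⁻¹ * ((u' * u⁻¹)⁻¹ * g * c * ((u' * u⁻¹)⁻¹ * g)⁻¹) * (u' * u⁻¹)⁻¹ by group, this]
  simpa [hc.inv_eq] using cm_K (R.up hx fu (b2.mul a2.inv)) (ball hx 0 s hc k)

theorem pr_fx (hx : P.Fr x) (s : P.adj (x 0) v) (t : P.adj (x 0) w) (ha : Zm a (x 0) v) (hb : Zm b (x 0) w) (k : ℤ)
    (q : a * b ∈ P.K (x k)) (q' : a * b ∈ P.K (x (-k))) (e : 1 ≤ k ∧ 2 * k < P.n := by omega) :
    Fx (a * b) x (-k - 1) (k + 1) ∧ Fm (a * b) (x 0) (x 1) ∧ a * b * (a * b) = 1 :=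
  let ⟨h1, _, _, h2⟩ := fx_pair hx s t ha hb k ⟨q, q'⟩ e; ⟨h1, h2⟩

theorem Nt.ne (hx : P.Fr x) (s : P.adj (x 0) v) (n : w ≠ v) (ha : Zm a (x 0) v) {k : ℤ}
    (N : P.Nt b (x 0) w k) (e : 1 ≤ k ∧ P.n = 2 * k + 2 := by omega) :
    ∃ x', P.Fr x' ∧ x' 0 = x 0 ∧ x' 1 = v ∧ a ∈ P.K (x' k) ∧ b ∉ P.K (x' k) := by
  obtain ⟨x', h', e0, rfl⟩ := exF hx 0 s
  exact ⟨x', h', e0, rfl, near h' (e0 ▸ ha) k, N x' h' e0 n.symm⟩

theorem same (fh : P.Fh) (T : P.Two x) (s : P.adj (x 0) v) (ha : Zm a (x 0) v) (hb : Zm b (x 0) v) {k : ℤ}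
    (Na : P.Nt a (x 0) v k) (Nb : P.Nt b (x 0) v k) (e : k % 2 = 1 ∧ 1 ≤ k ∧ P.n = 2 * k + 2 := by omega) :
    P.Zc (a * b) (x 0) := by
  have hx := T.fr
  have nr := T.nr 0
  simp only [Reg, not_forall] at nr
  obtain ⟨o, w, g, so, sw, n, m, f, gk⟩ := nr
  obtain ⟨y, hy, y0, rfl, rfl⟩ := fr2 hx 0 so sw n
  have T' := T.alt0 fh hy y0
  rw [← y0] at so sw m gk s ha hb Na Nb ⊢
  obtain ⟨z, sz, mz⟩ : ∃ z, P.adj (y 0) z ∧ g • z ≠ z := by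
    by_contra! q; exact gk ⟨m.l, q⟩
  obtain ⟨h, hh, rfl⟩ := trG hy 0 s sz
  have n1 : h • v ≠ y 1 := fun o => mz (o ▸ m.r)
  have n2 : h • v ≠ y (-1) := fun o => mz (o ▸ f)
  have t := adj_fix m.l sz
  have key : ∀ {a}, Zm a (y 0) (h • v) → P.Nt a (y 0) (h • v) k → Fx (a * (g * a * g⁻¹)) y (-k - 1) (k + 1) ∧
      Fm (a * (g * a * g⁻¹)) (y 0) (y 1) ∧ a * (g * a * g⁻¹) * (a * (g * a * g⁻¹)) = 1 ∧ a * (g * a * g⁻¹) ≠ 1 :=
    fun {a} ha Na => by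
      obtain ⟨h1, h2, h3⟩ := pr_fx hy sz t ha (ha.nm m.l) k (cl1 hy sz n1 ha m k (T'.odd k))
        (cl1 (P.rev hy) sz n2 ha (step hy 0 so sw m f) k (T'.odd _))
      obtain ⟨x', -, -, -, p, q⟩ := Nt.ne hy sz mz ha (Na.nm m.l)
      exact ⟨h1, h2, h3, fun o => q (eq_inv_of_mul_eq_one_right o ▸ inv_mem p)⟩
  obtain ⟨f1, f2, f3, f4⟩ := key (ha.nm hh) (Na.nm hh)
  obtain ⟨g1, g2, g3, g4⟩ := key (hb.nm hh) (Nb.nm hh)
  have := uq fh hy (T'.ev _) f1 g1 f2 g2 f3 g3 f4 g4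
  generalize hA : h * a * h⁻¹ = A at *
  generalize hB : h * b * h⁻¹ = B at *
  have hA' : Zm A (y 0) (h • v) := hA ▸ ha.nm hh
  have hB' : Zm B (y 0) (h • v) := hB ▸ hb.nm hh
  have e : g * (A * B) * g⁻¹ = A * B := by
    calc _ = A⁻¹ * (A * (g * A * g⁻¹)) * (g * B * g⁻¹) := by group
      _ = A * B := by rw [this, hA'.inv_eq, mul_assoc, mul_assoc, (hB'.cj g).sq, mul_one]
  have := (Zc.of_two hy 0 sz t mz (hA'.mul hB') (e ▸ (hA'.mul hB').nm m.l)).nm (g := h⁻¹) (inv_smul_eq_iff.2 hh.symm)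
  rwa [← hA, ← hB, show h⁻¹ * (h * a * h⁻¹ * (h * b * h⁻¹)) * h⁻¹⁻¹ = a * b by group] at this

theorem pa (fh : P.Fh) (T : P.Two x) (s : P.adj (x 0) v) (t : P.adj (x 0) w) (n : v ≠ x 1) (n' : w ≠ x 1)
    (ha : Zm a (x 0) v) (hb : Zm b (x 0) w) {k : ℤ} (Na : P.Nt a (x 0) v k) (Nb : P.Nt b (x 0) w k)
    (e : 1 ≤ k ∧ P.n = 2 * k + 2 := by omega) : a * b ∈ P.K (x k) := by
  have hx := T.fr
  by_cases o : k % 2 = 1
  · obtain ⟨f, hf, rfl⟩ := trV hx 0 (ad hx 0 1) s t n n'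
    have := mul_mem (cl1 hx s n ha hf k (T.odd k)) ((same fh T t (ha.nm hf.l) hb (Na.nm hf.l) Nb).K hx 0 k)
    rwa [← mul_assoc, mul_assoc a, (ha.cj f).sq, mul_one] at this
  have mv : ∀ {a v}, P.adj (x 0) v → Zm a (x 0) v → Fm a (x k) (x (k - 1)) := fun {a v} s ha =>
    move hx (show Fx a x 0 k from fun j _ _ => ball hx 0 s ha j) (Zm_F hx 0 s ha (ad hx 0 1)) _ _
  exact (T.ev k).e1 (ad hx k (k - 1)) (mv s ha) (mv t hb) ha.sq hb.sq (fpf hx s n ha k (Na x hx rfl n.symm))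
    (fpf hx t n' hb k (Nb x hx rfl n'.symm))

theorem noNt (fh : P.Fh) (T : P.Two x) (s : P.adj (x 0) v) (hc : Zm c (x 0) v) {k : ℤ} (N : P.Nt c (x 0) v k)
    (e : 1 ≤ k ∧ P.n = 2 * k + 2 := by omega) : False := by
  have hx := T.fr
  have ex : ∀ {w}, P.adj (x 0) w → ∃ c, Zm c (x 0) w ∧ P.Nt c (x 0) w k := fun t => by
    obtain ⟨g, hg, rfl⟩ := trG hx 0 s t
    exact ⟨_, hc.nm hg, N.nm hg⟩
  have pp : ∀ {v w a b}, P.adj (x 0) v → P.adj (x 0) w → v ∉ [x 1, x (-1)] → w ∉ [x 1, x (-1)] → Zm a (x 0) v →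
      Zm b (x 0) w → P.Nt a (x 0) v k → P.Nt b (x 0) w k → Fx (a * b) x (-k - 1) (k + 1) ∧ Fm (a * b) (x 0) (x 1) ∧
        a * b * (a * b) = 1 := fun s t p q ha hb Na Nb => by
    simp only [List.mem_cons, List.not_mem_nil, or_false, not_or] at p q
    exact pr_fx hx s t ha hb k (pa fh T s t p.1 q.1 ha hb Na Nb) (pa fh T.rev s t p.2 q.2 ha hb Na Nb)
  by_cases o : k % 2 = 1
  · obtain ⟨v0, s0, a0⟩ := av fh hx 0 (T.nr 0) [x 1, x (-1)]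
    obtain ⟨v1, s1, a1⟩ := av fh hx 0 (T.nr 0) [v0, x 1, x (-1)]
    obtain ⟨v2, s2, a2⟩ := av fh hx 0 (T.nr 0) [v0, v1, x 1, x (-1)]
    rw [List.mem_cons, not_or] at a1 a2
    rw [List.mem_cons, not_or] at a2
    obtain ⟨c0, z0, N0⟩ := ex s0
    obtain ⟨c1, z1, N1⟩ := ex s1
    obtain ⟨c2, z2, N2⟩ := ex s2
    obtain ⟨f1, f2, f3⟩ := pp s0 s1 a0 a1.2 z0 z1 N0 N1
    obtain ⟨g1, g2, g3⟩ := pp s0 s2 a0 a2.2.2 z0 z2 N0 N2
    have n1 : ∀ {w b}, w ≠ v0 → P.Nt b (x 0) w k → c0 * b ≠ 1 := fun n N o =>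
      let ⟨_, _, _, _, p, q⟩ := Nt.ne hx s0 n z0 N; q (eq_inv_of_mul_eq_one_right o ▸ inv_mem p)
    obtain rfl := mul_left_cancel (uq fh hx (T.ev _) f1 g1 f2 g2 f3 g3 (n1 a1.1 N1) (n1 a2.1 N2))
    obtain ⟨_, _, _, _, p, q⟩ := Nt.ne hx s1 a2.2.1 z1 N2
    exact q p
  obtain ⟨y, sy, p, q⟩ := thick hx 0 (-1) 1
  obtain ⟨u, u1, u2, rfl⟩ := trD hx P.n 0 1 (-1) 0 1 sy q
  have fp : ∀ w, P.adj (x 0) w → w ≠ x 1 → u • w ≠ w := fun w s n r => p (by rw [tvD fh hx u2 u1 1 s n r, one_smul])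
  obtain ⟨v0, s0, a0⟩ := av fh hx 0 (T.nr 0) [u⁻¹ • x (-1), x 1, x (-1)]
  obtain ⟨v1, s1, a1⟩ := av fh hx 0 (T.nr 0) [u⁻¹ • v0, v0, u⁻¹ • x (-1), x 1, x (-1)]
  have nn : ∀ {w}, w ∉ [u⁻¹ • x (-1), x 1, x (-1)] → u • w ∉ [x 1, x (-1)] := fun {w} h => by
    simp only [List.mem_cons, List.not_mem_nil, or_false, not_or] at h ⊢
    exact ⟨fun o => h.2.1 (MulAction.injective u (o.trans u1.r.symm)), fun o => h.1 (by rw [← o, inv_smul_smul])⟩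
  rw [List.mem_cons, not_or, List.mem_cons, not_or] at a1
  obtain ⟨c0, z0, N0⟩ := ex s0
  obtain ⟨c1, z1, N1⟩ := ex s1
  obtain ⟨f1, f2, -⟩ := pp s0 s1 (List.not_mem_of_not_mem_cons a0) (List.not_mem_of_not_mem_cons a1.2.2) z0 z1 N0 N1
  obtain ⟨g1, g2, -⟩ := pp (adj_fix u1.l s0) (adj_fix u1.l s1) (nn a0) (nn a1.2.2) (z0.nm u1.l) (z1.nm u1.l)
    (N0.nm u1.l) (N1.nm u1.l)
  have k1 := cm_K ((T.odd (k + 1)).up hx u2 u1) (f1.at (k + 1))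
  rw [conj_mul] at g1 g2
  have e1 := tvU fh hx (f1.mul g1.inv) (f2.mul g2.inv) k (ad hx _ (k + 2)) (ne hx _ _) (K.up (by simpa [mul_assoc] using k1) hx _)
  obtain ⟨x', h', e0, e', p', q'⟩ := Nt.ne hx s0 a1.2.1 z0 N1
  have := pa fh (T.alt0 fh h' e0) (e0 ▸ adj_fix u1.l s0) (e0 ▸ adj_fix u1.l s1)
    (by rw [e']; exact fp _ s0 fun o => a0 (by simp [o])) (e' ▸ fun o => a1.1 (by rw [← o, inv_smul_smul]))
    (e0 ▸ z0.nm u1.l) (e0 ▸ z1.nm u1.l) (e0 ▸ N0.nm u1.l) (e0 ▸ N1.nm u1.l)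
  rw [conj_mul, ← mul_inv_eq_one.1 e1] at this
  exact q' ((mul_mem_cancel_left p').1 this)

theorem exZc (fh : P.Fh) (T : P.Two x) (n2 : P.n % 2 = 0) (i : ℤ) (e : i % 2 = 0 := by omega) :
    ∃ c : G, c ≠ 1 ∧ P.Zc c (x i) := by
  suffices ∀ {x}, P.Two x → ∃ c : G, c ≠ 1 ∧ P.Zc c (x 0) by simpa using this (T.shift i)
  intro x T
  have hx := T.fr
  have := P.three
  obtain ⟨k, hk⟩ : ∃ k, P.n = 2 * k + 2 := ⟨P.n / 2 - 1, by omega⟩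
  obtain ⟨c, c1, hc⟩ := exZ ((T.ev 0).two _ (ad hx 0 1)) (F_ne_bot hx 0 (ad hx 0 1))
  have fx : ∀ {c v}, P.adj (x 0) v → Zm c (x 0) v → Fx c x (-k - 1) (k + 1) := fun {c v} s hc => by
    have := (tr_or hx s hc k).resolve_left fun N => noNt fh T s hc N
    exact ((show Fx c x (-k) k from fun j _ _ => ball hx 0 s hc j).up _ (K.up (this x hx rfl) hx _)).down _
      (K.up (i := -k) (this _ (P.rev hx) rfl) hx _)
  refine ⟨c, c1, ?_⟩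
  by_cases o : k % 2 = 1
  · obtain ⟨r, hr⟩ := refl hx 0
    have z : Zm (r * c * r⁻¹) (x 0) (x (-1)) := by simpa [hr] using hc.cj r
    exact Zc.of_two hx 0 (ad hx 0 1) (ad hx 0 (-1)) (ne hx _ _) hc (uq fh hx (T.ev _) (fx (ad hx 0 (-1)) z)
      (fx (ad hx 0 1) hc) (Zm_F hx 0 (ad hx 0 (-1)) z (ad hx 0 1)) hc.f z.sq hc.sq (by simpa using c1) c1 ▸ z)
  obtain ⟨y, sy, p, q⟩ := thick hx 0 (-1) 1
  obtain ⟨u, u1, u2, rfl⟩ := trU hx (-P.n) 0 (-1) 1 0 (-1) sy p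
  have z := hc.nm u1.l
  have k1 := cm_K ((T.odd (-k - 1)).up hx u2 u1) ((fx (ad hx 0 1) hc).at (-k - 1))
  rw [hc.inv_eq] at k1
  have := tvD fh hx ((fx (ad hx 0 1) hc).mul (fx sy z)) (hc.f.mul (Zm_F hx 0 sy z (ad hx 0 1))) (-k) (ad hx _ (-k - 2))
    (ne hx _ _) (K.up k1 hx _)
  exact Zc.of_two hx 0 (ad hx 0 1) sy q hc (by rwa [eq_inv_of_mul_eq_one_right this, hc.inv_eq] at z)

end SPoly
end CF.BN2
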