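import Cfsg.Agent.Mp.A

/-! Split polygons: there are no exceptional vertices. -/

set_option autoImplicit false
set_option linter.unusedSectionVars false

namespace CF.BN2
open Subgroup MulAction Cfsg CF.BG

variable {G V : Type*} [Group G] [MulAction G V]

namespace SPoly
open Poly
variable [Finite G] {P : SPoly G V} {x x' : ℤ → V} {y z v w : V} {a b c d g h : G}

theorem Zc.zm (hc : P.Zc c v) (s : P.adj y v) : Zm c y v := (hc _ (P.symm s)).symm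

theorem Zc.bl (hx : P.Fr x) (i : ℤ) (s : P.adj (x i) v) (hc : P.Zc c v) (a b : ℤ)
    (e : 2 * (b - i) < P.n ∧ 2 * (i - a) < P.n := by omega) : Fx c x a b := fun j _ _ => SPoly.ball hx i s (hc.zm s) j

theorem zfU (fh : P.Fh) (hx : P.Fr x) (i l j k : ℤ) (s : P.adj (x i) v) (n : v ≠ x l) (hc : P.Zc c v) (c1 : c ≠ 1)
    (e : l = i + 1 ∧ 2 * (j - i + 1) = P.n ∧ k = j - 1 := by omega) :
    Fm c (x j) (x k) ∧ ∀ w, P.adj (x j) w → w ≠ x k → c • w ≠ w := by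
  have := P.three
  obtain ⟨x', h', e', rfl⟩ := exD hx i l (i - 1) s n
  rw [← e' j (by omega) (by omega), ← e' k (by omega) (by omega)]
  have f := hc.fx h' (i - 1) (j - P.n) j
  exact ⟨move h' f (hc _ (ad h' _ i)).f _ _, fun w p q r => c1 (tvU fh h' f (hc _ (ad h' _ i)).f k p q r)⟩

theorem zfD (fh : P.Fh) (hx : P.Fr x) (i l j k : ℤ) (s : P.adj (x i) v) (n : v ≠ x l) (hc : P.Zc c v) (c1 : c ≠ 1)
    (e : l = i - 1 ∧ 2 * (i - j + 1) = P.n ∧ k = j + 1 := by omega) :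
    Fm c (x j) (x k) ∧ ∀ w, P.adj (x j) w → w ≠ x k → c • w ≠ w := by
  have := P.three
  obtain ⟨x', h', e', rfl⟩ := exU hx i l (i + 1) s n
  rw [← e' j (by omega) (by omega), ← e' k (by omega) (by omega)]
  have f := hc.fx h' (i + 1) j (j + P.n)
  exact ⟨move h' f (hc _ (ad h' _ i)).f _ _, fun w p q r => c1 (tvD fh h' f (hc _ (ad h' _ i)).f k p q r)⟩

theorem zzU (fh : P.Fh) (hx : P.Fr x) (i l j : ℤ) (X : P.Exc (x j)) (s : P.adj (x i) v) (t : P.adj (x i) w) (n : v ≠ x l)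
    (n' : w ≠ x l) (ha : P.Zc a v) (hb : P.Zc b w) (a1 : a ≠ 1) (b1 : b ≠ 1)
    (e : l = i + 1 ∧ 2 * (j - i + 1) = P.n := by omega) : a * b ∈ P.K (x j) ∧ a ∉ P.K (x j) :=
  let ⟨p, q⟩ := zfU fh hx i l j (j - 1) s n ha a1
  let ⟨p', q'⟩ := zfU fh hx i l j (j - 1) t n' hb b1
  ⟨X.e1 (ad hx _ _) p p' (ha.zm s).sq (hb.zm t).sq q q', fun o => q _ (ad hx j (j + 1)) (ne hx _ _) (K.up o hx _)⟩

theorem zzD (fh : P.Fh) (hx : P.Fr x) (i l j : ℤ) (X : P.Exc (x j)) (s : P.adj (x i) v) (t : P.adj (x i) w) (n : v ≠ x l)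
    (n' : w ≠ x l) (ha : P.Zc a v) (hb : P.Zc b w) (a1 : a ≠ 1) (b1 : b ≠ 1)
    (e : l = i - 1 ∧ 2 * (i - j + 1) = P.n := by omega) : a * b ∈ P.K (x j) ∧ a ∉ P.K (x j) :=
  let ⟨p, q⟩ := zfD fh hx i l j (j + 1) s n ha a1
  let ⟨p', q'⟩ := zfD fh hx i l j (j + 1) t n' hb b1
  ⟨X.e1 (ad hx _ _) p p' (ha.zm s).sq (hb.zm t).sq q q', fun o => q _ (ad hx j (j - 1)) (ne hx _ _) (K.up o hx _)⟩

theorem zcm (hx : P.Fr x) (i : ℤ) (s : P.adj (x i) v) (t : P.adj (x i) w) (ha : P.Zc a v) (hb : P.Zc b w) :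
    a * b = b * a := Zm_comm hx i s (ha.zm s) t (hb.zm t)

theorem tri (fh : P.Fh) (T : P.Two x) (i k l p q : ℤ) (s : P.adj (x i) v) (n : v ≠ x k) (n' : v ≠ x l)
    (ha : P.Zc a (x k)) (hb : P.Zc b (x l)) (hc : P.Zc c v) (a1 : a ≠ 1) (b1 : b ≠ 1) (c1 : c ≠ 1)
    (e : k = i - 1 ∧ l = i + 1 ∧ 2 * (q - i + 1) = P.n ∧ 2 * (i - p + 1) = P.n ∧ q % 2 = 0 ∧ p % 2 = 0 := by omega) :
    Fx (a * b * c) x (p - 1) (q + 1) ∧ Fm (a * b * c) (x i) (x l) ∧ a * b * c * (a * b * c) = 1 ∧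
      a * b * c ∈ P.K (x p) ∧ a * b * c ∈ P.K (x q) := by
  have hx := T.fr
  have := P.three
  have sa := ad hx i k
  have sb := ad hx i l
  have k1 : a * b * c ∈ P.K (x p) := mul_assoc a b c ▸ mul_mem (ha.K hx k p)
    (zzD fh hx i k p (T.ev p) sb s (ne hx _ _) n hb hc b1 c1).1
  have k2 : a * b * c ∈ P.K (x q) := by
    rw [zcm hx i sa sb ha hb, mul_assoc]
    exact mul_mem (hb.K hx l q) (zzU fh hx i l q (T.ev q) sa s (ne hx _ _) n' ha hc a1 c1).1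
  refine ⟨((((ha.bl hx i sa p q).mul (hb.bl hx i sb p q)).mul (hc.bl hx i s p q)).up _ (K.up k2 hx _)).down _
    (K.up k1 hx _), ((Zm_F hx i sa (ha.zm sa) sb).mul (hb.zm sb).f).mul (Zm_F hx i s (hc.zm s) sb), ?_, k1, k2⟩
  have e1 : Commute a b := zcm hx i sa sb ha hb
  rw [← sq, (Commute.mul_left (zcm hx i sa s ha hc) (zcm hx i sb s hb hc)).mul_pow, e1.mul_pow, sq, sq, sq,
    (ha.zm sa).sq, (hb.zm sb).sq, (hc.zm s).sq, one_mul, one_mul]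

theorem exZc' (fh : P.Fh) (T : P.Two x) (n2 : P.n % 2 = 0) (i : ℤ) (s : P.adj (x i) v) (e : i % 2 = 1 := by omega) :
    ∃ c : G, c ≠ 1 ∧ P.Zc c v := by
  obtain ⟨c, c1, hc⟩ := exZc fh T n2 (i + 1)
  obtain ⟨g, -, rfl⟩ := trG T.fr i (ad T.fr i (i + 1)) s
  exact ⟨_, by simpa using c1, hc.cj g⟩

variable (P) in
/-- at least four neighbours -/
def F4 (y : V) : Prop := ∀ a b c, ∃ v, P.adj y v ∧ v ≠ a ∧ v ≠ b ∧ v ≠ c

theorem m8 (fh : P.Fh) (T : P.Two x) (n : P.n = 8) (f5 : P.F4 (x 5)) (f9 : P.F4 (x 9)) : False := by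
  have hx := T.fr
  obtain ⟨z4, n4, h4⟩ := exZc fh T (by omega) 4
  obtain ⟨z6, n6, h6⟩ := exZc fh T (by omega) 6
  obtain ⟨z8, n8, h8⟩ := exZc fh T (by omega) 8
  obtain ⟨z0, n0, h0⟩ := exZc fh T (by omega) 10
  obtain ⟨y, sy, y4, y6⟩ := thick hx 5 4 6
  obtain ⟨c, c1, hc⟩ := exZc' fh T (by omega) 5 sy
  obtain ⟨f1, f2, f3, -⟩ := tri fh T 5 4 6 2 8 sy y4 y6 h4 h6 hc n4 n6 c1
  have r1 : z4 * z6 * c ≠ 1 := fun o => by
    obtain ⟨d, sd, d4, d6, dy⟩ := f5 (x 4) (x 6) y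
    obtain ⟨x', h', e', rfl⟩ := exU hx 5 4 6 sd d4
    have e5 := e' 5 (by omega) (by omega)
    have X := (T.alt fh h' 4 (by rw [e' 4 (by omega) (by omega)]; exact T.nr 4)).ev 8
    exact (zzU fh h' 5 6 8 X (e5 ▸ sy) (e5 ▸ sy) dy.symm dy.symm hc hc c1 c1).2 (eq_inv_of_mul_eq_one_right o ▸
      inv_mem (zzU fh h' 5 6 8 X (e5 ▸ ad hx 5 4) (e5 ▸ ad hx 5 6) d4.symm d6.symm h4 h6 n4 n6).1)
  have cj : ∀ r : G, r • x 5 = x 5 → Fx (r * (z4 * z6 * c) * r⁻¹) x 2 8 := fun r f => by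
    rw [← conj_mul, ← conj_mul]
    exact (((h4.cj r).bl hx 5 (adj_fix f (ad hx 5 4)) 2 8).mul ((h6.cj r).bl hx 5 (adj_fix f (ad hx 5 6)) 2 8)).mul
      ((hc.cj r).bl hx 5 (adj_fix f sy) 2 8)
  generalize z4 * z6 * c = ρ at *
  have ρ9 : ρ • x 9 = x 9 := f1.at 9
  have fp : ∀ w, P.adj (x 9) w → w ≠ x 8 → ρ • w ≠ w := fun w s n r => r1 (tvU fh hx f1 f2 8 s n r)
  obtain ⟨w, sw, w8, w0, wρ⟩ := f9 (x 8) (x 10) (ρ • x 10)
  obtain ⟨d, d1, hd⟩ := exZc' fh T (by omega) 9 sw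
  obtain ⟨g1, g2, g3, -⟩ := tri fh T 9 8 10 6 12 sw w8 w0 h8 h0 hd n8 n0 d1
  have s0 := adj_fix ρ9 (ad hx 9 10)
  have s1 := adj_fix ρ9 sw
  have e : z8 * z0 * d * (ρ * (z8 * z0 * d) * ρ⁻¹) = z0 * (d * (ρ * z0 * ρ⁻¹)) * (ρ * d * ρ⁻¹) := by
    rw [← conj_mul, ← conj_mul, (h8 _ (ad hx 8 9)).cj_eq (move hx f1 f2 _ _), zcm hx 9 (ad hx 9 8) (ad hx 9 10) h8 h0,
      mul_assoc z0, zcm hx 9 (ad hx 9 8) sw h8 hd]
    simp only [mul_assoc]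
    rw [← mul_assoc z8, (h8 _ (ad hx 8 9)).sq, one_mul]
  have k : z8 * z0 * d * (ρ * (z8 * z0 * d) * ρ⁻¹) = 1 := by
    refine tv fh hx (s := 2) (t := 12) (k := 9) (l := 10) (fun k p q => ?_) (g2.mul ?_)
    · by_cases o : k ≤ 8
      · have := ((cj _ (g1.at 5)).mul f1.inv.mono).at k
        rwa [inv_eq_of_mul_eq_one_right g3, mul_assoc, mul_assoc, ← mul_assoc ρ] at this
      · rw [e]
        exact (((h0.bl hx 9 (ad hx 9 10) 6 12).mul ((hd.bl hx 9 sw 6 12).mul ((h0.cj ρ).bl hx 9 s0 6 12))).mul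
          ((hd.cj ρ).bl hx 9 s1 6 12)).at k
    · exact step hx 9 (ad hx 9 8) (ad hx 9 10) ((move hx g1 g2 9 8).nm ρ9 (f1.at 8))
        (K.up (K.nm ((T.odd 9).up hx g1 g2) ρ9) hx 10)
  have m : ρ • w ≠ x 10 := fun o => wρ (by rw [← o, ← mul_smul, f3, one_smul])
  rw [e] at k
  exact (zzU fh hx 9 10 12 (T.ev 12) s1 s1 m m (hd.cj ρ) (hd.cj ρ) (by simpa using d1) (by simpa using d1)).2
    (eq_inv_of_mul_eq_one_right k ▸ inv_mem (mul_mem (h0.K hx 10 12) (zzU fh hx 9 10 12 (T.ev 12) sw s0 w0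
      (fp _ (ad hx 9 10) (ne hx _ _)) hd (h0.cj ρ) d1 (by simpa using n0)).1))

theorem m6a (fh : P.Fh) (T : P.Two x) (n : P.n = 6) (ha : P.Zc a (x 4)) (hb : P.Zc b (x 8)) :
    a * b * (a * b) = 1 ∨ P.Zc (a * b * (a * b)) (x 6) := by
  have hx := T.fr
  have am := ha _ (ad hx 4 5)
  have bm := hb _ (ad hx 8 7)
  have f1 := m3b hx n ha hb
  have f2 := (m3b (rv hx 12) n hb ha).inv
  have e : (b * a * (b * a))⁻¹ = a * b * (a * b) := by simp only [mul_inv_rev, am.inv_eq, bm.inv_eq]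
  rw [e] at f2
  have f : Fx (a * b * (a * b)) x 3 9 := fun k s t => by
    by_cases o : k ≤ 7
    · exact f1.at k
    · simpa using f2.at (12 - k)
  have m := (move hx (ha.fx hx 4 1 7) am.f 6 7).mul (move hx (hb.fx hx 8 5 11) bm.f 6 7)
  replace m := m.mul m
  have sq : a * b * (a * b) * (a * b * (a * b)) = 1 := by
    have := bm.cm _ (move hx f m 8 7)
    nth_rw 2 [← e]
    rw [mul_inv_eq_one, ← mul_left_inj b, this]
    simp only [mul_assoc]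
  by_cases o : a * b * (a * b) = 1
  · exact .inl o
  generalize a * b * (a * b) = h at *
  obtain ⟨z, z1, hz⟩ := exZc fh T (by omega) 6
  have zm := hz _ (ad hx 6 7)
  have zf := hz.fx hx 6 3 9
  obtain ⟨g, g9, g8, k⟩ := invl hx 9 (T.odd 9) (ad hx 9 8) (move hx f m _ _) (move hx zf zm.f _ _) sq zm.sq
    (fun q => o (tvU fh hx f m 8 (ad hx 9 10) (ne hx _ _) (K.up q hx _)))
    (fun q => z1 (tvU fh hx zf zm.f 8 (ad hx 9 10) (ne hx _ _) (K.up q hx _)))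
  obtain ⟨u, -, u1, u2⟩ := trU hx 3 9 8 10 8 9 (adj_fix g9 (ad hx 9 10))
    fun q => ne hx 10 8 (by omega) (MulAction.injective g (q.trans g8.symm))
  obtain ⟨u', t, p, q, r⟩ := spl (g := u⁻¹ * g) hx 9 8 (by rw [mul_smul, g9, u1.inv.at 9]) (by rw [mul_smul, g8, u1.inv.at 8])
  have uk : u' ∈ P.K (x 9) := T.odd 9 (by omega) _ _ _ (ad hx 9 8) (ad hx 9 10) (ne hx _ _) p (by
    rw [← q 10, ← mul_smul, ← r, mul_smul, ← u2, inv_smul_smul, q])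
  have ft := u1.mul (q.fx 3 9)
  have z' := hz.nm (ft.at 6)
  have ff := (ft.mul zf).mul ft.inv
  have k' : h * (u * t * z * (u * t)⁻¹) ∈ P.K (x 9) := by
    have eg : g = u * (u' * t) := by rw [← r]; group
    have := mul_mem (mul_mem (inv_mem (K.nm (K.nm uk (u1.at 9)) (f.at 9))) k) (K.nm uk (u1.at 9))
    convert this using 1
    rw [eg]; group
  have := tvU fh hx (f.mul ff) (m.mul (z' _ (ad hx 6 7)).f) 8 (ad hx 9 10) (ne hx _ _) (K.up k' hx _)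
  rw [eq_inv_of_mul_eq_one_left this, (z' _ (ad hx 6 7)).inv_eq]
  exact .inr z'

theorem exr6 (fh : P.Fh) (T : P.Two x) (n : P.n = 6) :
    ∃ r : G, Fm r (x 0) (x 1) ∧ Fx r x 0 6 ∧ r ∈ P.K (x 4) ∧ r * r ≠ 1 := by
  have hx := T.fr
  by_contra! H
  obtain ⟨z, hz⟩ : ∃ z : G, ∀ r, Fm r (x 0) (x 1) → Fx r x 0 6 → r ∈ P.K (x 4) → r = 1 ∨ r = z := by
    by_cases q : ∃ z : G, Fm z (x 0) (x 1) ∧ Fx z x 0 6 ∧ z ∈ P.K (x 4) ∧ z ≠ 1
    · obtain ⟨z, a, b, c, d⟩ := q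
      exact ⟨z, fun r a' b' c' => or_iff_not_imp_left.2 fun d' => uq fh hx (T.ev 6) b' b a' a (H _ a' b' c') (H _ a b c) d' d⟩
    · exact ⟨1, fun r a b c => .inl (by_contra fun d => q ⟨r, a, b, c, d⟩)⟩
  obtain ⟨y, s, p⟩ := av fh hx 6 (T.nr 6) [x 5, x 7, z • x 7]
  simp only [List.mem_cons, List.not_mem_nil, or_false, not_or] at p
  obtain ⟨u, a, b, rfl⟩ := trU hx 0 6 5 7 0 1 s p.1
  obtain ⟨y, s', p'⟩ := av fh hx 6 (T.nr 6) [x 5, x 7, z • x 7, u⁻¹ • x 7, u⁻¹ • z • x 7]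
  simp only [List.mem_cons, List.not_mem_nil, or_false, not_or] at p'
  obtain ⟨u', a', b', rfl⟩ := trU hx 0 6 5 7 0 1 s' p'.1
  rcases hz _ (a.mul a') (b.mul b') ((T.ev 4).e2 (ad hx 4 3) (ad hx 4 5) (ne hx _ _) (move hx b a _ _) (move hx b' a' _ _)
    (b.at _) (b'.at _) (fun k => by rcases hz _ a b k with rfl | rfl <;> simp at p)
    fun k => by rcases hz _ a' b' k with rfl | rfl <;> simp at p') with e | e
  · exact p'.2.2.2.1 (by rw [eq_inv_of_mul_eq_one_right e])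
  · exact p'.2.2.2.2 (by rw [← e, mul_smul, inv_smul_smul])

theorem m6 (fh : P.Fh) (T : P.Two x) (n : P.n = 6) : False := by
  have hx := T.fr
  obtain ⟨r, r0, r1, r4, r3⟩ := exr6 fh T n
  obtain ⟨c, c1, hc⟩ := exZc fh T (by omega) 8
  have cm := hc _ (ad hx 8 9)
  have r7 : r⁻¹ • x 7 ≠ x 7 := fun q => r3 (by
    rw [tvU fh hx r1 r0 5 (ad hx 6 7) (ne hx _ _) (inv_smul_eq_iff.1 q).symm, one_mul])
  obtain ⟨y, h, e⟩ := path hx (fun j => if j ≤ 6 then r⁻¹ • x (12 - j) else x j) 6 9 (by omega)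
    (fun j u v => by
      split_ifs with q
      · rw [show j = 6 by omega]; exact r1.inv.at 6
      · rfl) 2 (by omega) fun j u v => by
      simp only [if_pos v, if_pos (show j - 1 ≤ 6 by omega)]
      refine ⟨P.inv _ (ad hx _ _), ?_⟩
      split_ifs with q
      · exact fun o => ne hx _ _ (by omega) (MulAction.injective r⁻¹ o)
      · rwa [show j = 6 by omega]
  have e4 : y 4 = r⁻¹ • x 8 := (e 4 (by omega) (by omega)).symm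
  have e6 : y 6 = x 6 := (e 6 (by omega) (by omega)).symm.trans (r1.inv.at 6)
  have e8 : y 8 = x 8 := (e 8 (by omega) (by omega)).symm
  have k : r⁻¹ * c * r⁻¹⁻¹ * c * (r⁻¹ * c * r⁻¹⁻¹ * c) ∈ P.K (x 4) := by
    rcases m6a fh (T.alt fh h 6 (e6 ▸ T.nr 6)) n (e4 ▸ hc.cj r⁻¹) (e8 ▸ hc) with q | q
    · exact q ▸ one_mem _
    · exact Zc.K hx 6 (e6 ▸ q) 4
  have s : P.adj (x 5) (c • x 4) := adj_fix (hc.ball hx 8 5) (ad hx 5 4)
  have r5 : r • c • x 4 = c • x 4 := ((T.odd 5).up hx r1 r0).2 _ s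
  rw [show r⁻¹ * c * r⁻¹⁻¹ * c = r⁻¹ * (c⁻¹ * r * c) by rw [cm.inv_eq]; group] at k
  have k2 : r * r ∈ P.K (c • x 4) := K.of_cj (by
    convert mul_mem (mul_mem r4 k) (K.nm' r4 (cj_fix r5)) using 1; group)
  obtain ⟨y, h, e, f⟩ := exU hx 5 4 6 s fun q => c1 (tvD fh hx (hc.fx hx 8 5 11) cm.f 6 (ad hx 5 4) (ne hx _ _) q)
  rw [← f] at k2
  exact r3 (tvU fh h ((((r1.mul r1).mono (c := 0) (d := 5)).congr fun k s t => e k (by omega) t).up 6 k2.1)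
    (k := 0) (l := 1) (by rw [e 0 (by omega) (by omega), e 1 (by omega) (by omega)]; exact r0.mul r0) 5
    (ad h 6 7) (ne h _ _) (K.up k2 h _))

theorem c4 (fh : P.Fh) (T : P.Two x) (n : P.n = 4) (ha : P.Zc a (x 0)) (hb : P.Zc b (x 4)) (a1 : a ≠ 1) (b1 : b ≠ 1) :
    (a * b) ^ 3 = 1 := by
  have hx := T.fr
  have am := ha _ (ad hx 0 1)
  have bm := hb _ (ad hx 4 5)
  have ha' : P.Zc a (x 8) := by rwa [per hx 0 8]
  obtain ⟨p1, q1⟩ := zfU fh hx 1 2 2 1 (ad hx 1 0) (ne hx _ _) ha a1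
  obtain ⟨p2, q2⟩ := zfD fh hx 3 2 2 3 (ad hx 3 4) (ne hx _ _) hb b1
  obtain ⟨p3, q3⟩ := zfD fh hx 7 6 6 7 (ad hx 7 8) (ne hx _ _) ha' a1
  obtain ⟨p4, q4⟩ := zfU fh hx 5 6 6 5 (ad hx 5 4) (ne hx _ _) hb b1
  have k2 := fh.cube hx 2 (T.nr 2) (ad hx 2 1) (ad hx 2 3) p1 p2 am.sq bm.sq q1 q2
  have k6 := fh.cube hx 6 (T.nr 6) (ad hx 6 7) (ad hx 6 5) p3 p4 am.sq bm.sq q3 q4
  have e : (a * b) ^ 3 = a * b * a⁻¹ * (b * a * b⁻¹) := by rw [am.inv_eq, bm.inv_eq]; simp only [pow_succ, mul_assoc]; simp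
  have s := adj_fix p2.l (ad hx 2 1)
  have e1 : a • x 3 = b • x 1 := by
    have := k2.2 _ s
    rw [e, mul_smul, cj_fix' p1.r, mul_smul, mul_smul, smul_eq_iff_eq_inv_smul] at this
    rw [← by_contra fun o => q2 _ (adj_fix p1.inv.l s) o this, smul_inv_smul]
  have h' := P.smul a hx
  have s' : P.adj (a • x 3) (b • x 0) := e1 ▸ P.inv b (ad hx 1 0)
  refine tv fh h' (s := 1) (t := 6) (k := 3) (l := 2) (fun k p q => ?_) ?_
  · obtain rfl | rfl | rfl | rfl | rfl | rfl : k = 1 ∨ k = 2 ∨ k = 3 ∨ k = 4 ∨ k = 5 ∨ k = 6 := by omega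
    · exact k2.2 _ (adj_fix p1.l (ad hx 2 1))
    · rw [p1.l, k2.1]
    · exact k2.2 _ (adj_fix p1.l (ad hx 2 3))
    · rw [e, mul_smul, ((ha.cj b).bl h' 3 s' 2 4).at 4, cj_fix' bm.f.l]
    · exact k6.2 _ (adj_fix p3.l (ad hx 6 5))
    · rw [p3.l, k6.1]
  · rw [e]
    exact (Zm_F h' 3 (ad h' 3 4) ((hb.cj a).zm (ad h' 3 4)) (ad h' 3 2)).mul (Zm_F h' 3 s' ((ha.cj b).zm s') (ad h' 3 2))

theorem r4 (fh : P.Fh) (T : P.Two x) (n : P.n = 4) (i k l : ℤ) (s : P.adj (x i) v) (n' : v ≠ x l)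
    (ha : P.Zc a (x k)) (hb : P.Zc b (x l)) (hc : P.Zc c v) (a1 : a ≠ 1) (b1 : b ≠ 1) (c1 : c ≠ 1)
    (e : k = i - 1 ∧ l = i + 1 ∧ i % 2 = 1 := by omega) : a * b * c ≠ 1 := fun o => by
  obtain ⟨rfl, rfl, e⟩ := e
  have hx := T.fr
  obtain ⟨d, d1, hd⟩ := exZc fh T (by omega) (i + 3)
  obtain ⟨x', h', e', rfl⟩ := exD hx i (i + 1) (i - 1) s n'
  have T' := T.alt fh h' (i + 1) (by rw [e' _ (by omega) (by omega)]; exact T.nr _)
  have e3 : 4 + (i - 1) = i + 3 := by omega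
  have h1 := c4 fh (T.shift (i - 1)) n (by simpa using ha) (by rwa [e3]) a1 d1
  have h2 := c4 fh (T'.shift (i - 1)) n (by simpa using hc) (by rwa [e3, e' _ (by omega) (by omega)]) c1 d1
  have c1 : Commute a b := zcm hx i (ad hx _ _) (ad hx _ _) ha hb
  have c2 : Commute b d := zcm hx (i + 2) (ad hx _ _) (ad hx _ _) hb hd
  have bm := hb.zm (ad hx i _)
  rw [eq_inv_of_mul_eq_one_right o, mul_inv_rev, bm.inv_eq, (ha.zm (ad hx i _)).inv_eq, mul_assoc,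
    (c1.symm.mul_right c2).mul_pow, h1, mul_one, pow_succ, sq, bm.sq, one_mul] at h2
  exact b1 h2

theorem hon0 (fh : P.Fh) (T : P.Two x) (n : P.n = 4) (f : Fx g x 1 5) (m : Fm g (x 1) (x 2)) :
    g ∈ P.K (x 2) ∧ g ∈ P.K (x 4) ∧ g * g = 1 := by
  have hx := T.fr
  by_cases g1 : g = 1
  · simp [g1, one_mem]
  obtain ⟨a, a1, ha⟩ := exZc fh T (by omega) 0
  obtain ⟨p, p1, hp⟩ := exZc fh T (by omega) 2
  obtain ⟨b, b1, hb⟩ := exZc fh T (by omega) 4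
  have s := adj_fix m.l (ad hx 1 0)
  have n0 : g • x 0 ≠ x 0 := fun o => g1 (tvD fh hx f m 2 (ad hx 1 0) (ne hx _ _) o)
  have n2 : g • x 0 ≠ x 2 := fun o => ne hx 0 2 (by omega) (MulAction.injective g (o.trans m.r.symm))
  have a1' : g * a * g⁻¹ ≠ 1 := by simpa using a1
  obtain ⟨f1, f2, f3, -⟩ := tri fh T 1 0 2 0 2 s n0 n2 ha hp (ha.cj g) a1 p1 a1'
  have f4 := r4 fh T n 1 0 2 s n2 ha hp (ha.cj g) a1 p1 a1'
  generalize hρ : a * p * (g * a * g⁻¹) = ρ at *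
  have s' := adj_fix (f1.at 3) (ad hx 3 4)
  have n4 : ρ • x 4 ≠ x 4 := fun o => f4 (tvU fh hx f1 f2 2 (ad hx 3 4) (ne hx _ _) o)
  have n5 : ρ • x 4 ≠ x 2 := fun o => ne hx 4 2 (by omega) (MulAction.injective ρ (o.trans f2.r.symm))
  have b1' : ρ * b * ρ⁻¹ ≠ 1 := by simpa using b1
  obtain ⟨g1, g2, g3, g4, g5⟩ := tri fh T 3 2 4 2 4 s' n5 n4 hp hb (hb.cj ρ) p1 b1 b1'
  have g6 := r4 fh T n 3 2 4 s' n4 hp hb (hb.cj ρ) p1 b1 b1'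
  have cm : ρ * (p * b * (ρ * b * ρ⁻¹)) * ρ⁻¹ = p * b * (ρ * b * ρ⁻¹) := by
    rw [← conj_mul, ← conj_mul, (hp.zm (ad hx 1 2)).cj_eq f2, mul_assoc p, mul_assoc p,
      zcm hx 3 (ad hx 3 4) s' hb (hb.cj ρ), show ρ * (ρ * b * ρ⁻¹) * ρ⁻¹ = ρ * ρ * b * (ρ * ρ)⁻¹ by group, f3]
    simp
  generalize p * b * (ρ * b * ρ⁻¹) = r at *
  have r1 : r • x 1 = x 1 := g1.at 1
  have e : r * g = 1 := tvD fh hx (g1.mul f) ((move hx g1 g2 1 2).mul m) 2 (ad hx 1 0) (ne hx _ _) (by_contra fun o => by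
    have t := adj_fix r1 (ad hx 1 0)
    have t' := adj_fix r1 s
    have k := (zzD fh hx 1 0 0 (T.ev 0) t t' (fun o => g6 (tvD fh hx g1 g2 2 (ad hx 1 0) (ne hx _ _) o))
      (by rwa [← mul_smul]) (ha.cj r) ((ha.cj g).cj r) (by simpa using a1) (by simpa using a1)).1
    have e1 : r * ρ * r⁻¹ = ρ := by rw [mul_inv_eq_iff_eq_mul] at cm ⊢; exact cm.symm
    rw [← hρ, ← conj_mul, ← conj_mul, (hp.zm (ad hx 1 2)).cj_eq (move hx g1 g2 1 2),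
      zcm hx 1 t (ad hx 1 2) (ha.cj r) hp, zcm hx 1 (ad hx 1 0) (ad hx 1 2) ha hp, mul_assoc p, mul_assoc p,
      mul_right_inj] at e1
    exact (zzD fh hx 1 0 0 (T.ev 0) s s n0 n0 (ha.cj g) (ha.cj g) a1' a1').2
      ((mul_mem_cancel_left (ha.K hx 0 0)).1 (e1 ▸ k)))
  rw [eq_inv_of_mul_eq_one_right e, inv_eq_of_mul_eq_one_right g3]
  exact ⟨g4, g5, g3⟩

theorem hon (fh : P.Fh) (T : P.Two x) (n : P.n = 4) (i j k l : ℤ) (f : Fx g x i j) {s t : ℤ} (m : Fm g (x s) (x t))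
    (e : j = i + 4 ∧ k = i + 1 ∧ l = i + 3 ∧ i % 2 = 1 ∧ (t = s + 1 ∨ t = s - 1) ∧ i ≤ s ∧ i ≤ t ∧ s ≤ j ∧ t ≤ j := by omega) :
    g ∈ P.K (x k) ∧ g ∈ P.K (x l) ∧ g * g = 1 := by
  have := hon0 (g := g) fh (T.shift (i - 1)) n (fun k p q => f.at _) (move T.fr f m _ _)
  rwa [show 2 + (i - 1) = k by omega, show 4 + (i - 1) = l by omega] at this

theorem dec4 (fh : P.Fh) (T : P.Two x) (n : P.n = 4) (f : Fx g x (-1) 1) (m : Fm g (x 0) (x 1)) :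
    ∃ v h u : G, g = v * h * u ∧ Fm h (x 0) (x 1) ∧ Fx h x (-2) 2 ∧ v ∈ P.K (x 0) ∧ u ∈ P.K (x 0) ∧
      ∀ k : G, Fm k (x 0) (x 1) → Fx k x (-2) 2 → k * v = v * k ∧ k * u = u * k := by
  have hx := T.fr
  obtain ⟨u, u1, u2, u3⟩ := trD hx 3 (-1) 0 (-2) 0 1 (adj_fix (f.inv.at (-1)) (ad hx (-1) (-2)))
    fun o => ne hx (-2) 0 (by omega) (MulAction.injective g⁻¹ (o.trans m.inv.l.symm))
  have f1 := (f.mul u2.mono).down (-2) (by rw [mul_smul, u3, smul_inv_smul])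
  obtain ⟨v, v1, v2, v3⟩ := trU hx (-3) 1 0 2 0 1 (adj_fix (f1.at 1) (ad hx 1 2))
    fun o => ne hx 2 0 (by omega) (MulAction.injective (g * u) (o.trans (f1.at 0).symm))
  obtain ⟨u4, u5, -⟩ := hon fh T n (-1) 3 0 2 u2 u1
  obtain ⟨v4, v5, -⟩ := hon fh T n (-3) 1 (-2) 0 v2 v1
  refine ⟨v, v⁻¹ * (g * u), u⁻¹, by group, v1.inv.mul (m.mul u1), (v2.mono.inv.mul f1).up 2
    (by rw [mul_smul, ← v3, inv_smul_smul]), v5, inv_mem u4, fun k k1 k2 => ⟨?_, ?_⟩⟩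
  · have p := K.up (cm_K ((T.odd 1).up hx k2 k1) (v2.at 1)) hx 2
    have q := K.up (inv_mem (cm_K v4 (k2.at (-2)))) hx (-3)
    rw [show (k * (v * k⁻¹ * v⁻¹))⁻¹ = v * (k * v⁻¹ * k⁻¹) by group] at q
    have := tv fh hx ((((v2.mono (c := -2) (d := 1)).mul ((k2.mono.mul v2.mono.inv).mul k2.mono.inv)).up 2 p).down _ q)
      (v1.mul (v1.inv.nm k1.l k1.r))
    rw [← mul_assoc, ← mul_assoc, mul_inv_eq_one, mul_inv_eq_iff_eq_mul] at this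
    exact this.symm
  · have p := K.up (cm_K ((T.odd (-1)).up hx k2 k1) (u2.at (-1))) hx (-2)
    have q := K.up (inv_mem (cm_K u5 (k2.at 2))) hx 3
    rw [show (k * (u * k⁻¹ * u⁻¹))⁻¹ = u * (k * u⁻¹ * k⁻¹) by group] at q
    have := tv fh hx ((((u2.mono (c := -1) (d := 2)).mul ((k2.mono.mul u2.mono.inv).mul k2.mono.inv)).up 3 q).down _ p)
      (u1.mul (u1.inv.nm k1.l k1.r))
    rw [← mul_assoc, ← mul_assoc, mul_inv_eq_one, mul_inv_eq_iff_eq_mul] at this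
    rw [mul_inv_eq_iff_eq_mul, mul_assoc, ← this, inv_mul_cancel_left]

theorem cm4 (fh : P.Fh) (T : P.Two x) (n : P.n = 4) (m : Fm g (x 0) (x 1)) (f : Fx g x (-2) 2) (k : g ∉ P.K (x 0))
    (ma : Fm a (x 0) (x 1)) (fa : Fx a x (-2) 2) (ka : a ∈ P.K (x 0)) (mb : Fm b (x 0) (x 1)) (fb : Fx b x (-2) 2)
    (kb : b ∈ P.K (x 0)) : a * b = b * a := by
  have hx := T.fr
  let S := F G (x 0) (x 1) ⊓ St G x (-2) 2
  have c9 := fh.card hx 2 (T.nr 2)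
  haveI := Nat.finite_of_card_ne_zero (c9.trans_ne (by omega))
  have h1 := Nat.card_le_card_of_injective (fun o : Option S => (o.elim ⟨x 1, ad hx 2 1⟩ fun u =>
    ⟨u.1 • x 3, adj_fix (Fx.at u.2.2 2) (ad hx 2 3)⟩ : {w // P.adj (x 2) w})) (by
    have q : ∀ u : S, u.1 • x 3 ≠ x 1 := fun u o =>
      ne hx 3 1 (by omega) (MulAction.injective u.1 (o.trans (Fx.at u.2.2 1).symm))
    rintro (_ | u) (_ | v) e
    · rfl
    · exact (q v (congrArg Subtype.val e).symm).elim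
    · exact (q u (congrArg Subtype.val e)).elim
    · refine congrArg _ (Subtype.ext (inv_mul_eq_one.1 (tvU fh hx ((Fx.inv v.2.2).mul u.2.2) ((Fm.inv v.2.1).mul u.2.1) 1
        (ad hx 2 3) (ne hx _ _) ?_)).symm)
      rw [mul_smul, show u.1 • x 3 = v.1 • x 3 from congrArg Subtype.val e, inv_smul_smul])
  rw [c9, Finite.card_option] at h1
  have lt : S ⊓ P.K (x 0) < S := lt_of_le_of_ne inf_le_left fun e => k (e.ge ⟨m, f⟩).2
  have h2 := card_lt lt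
  obtain ⟨j, hj⟩ := card_dvd_of_le lt.le
  have h3 : Nat.card ↥(S ⊓ P.K (x 0)) ≤ 4 := by
    rcases j with _ | _ | j
    · have := Nat.card_pos (α := S); omega
    · omega
    · nlinarith
  exact congrArg Subtype.val (comm_le4 h3 ⟨a, ⟨ma, fa⟩, ka⟩ ⟨b, ⟨mb, fb⟩, kb⟩)

theorem m4' (fh : P.Fh) (T : P.Two x) (n : P.n = 4) : False := by
  have nr := T.nr 0
  simp only [Reg, not_forall] at nr
  obtain ⟨o, w, g, so, sw, n', m, f, gk⟩ := nr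
  obtain ⟨y, hy, y0, rfl, rfl⟩ := fr2 T.fr 0 so sw n'
  replace T := T.alt0 fh hy y0
  rw [← y0] at m gk
  obtain ⟨v, g, u, rfl, g1, g2, v1, u1, -⟩ := dec4 fh T n (((Fx.one m.l).up 1 m.r).down _ f) m
  replace gk : g ∉ P.K (y 0) := fun o => gk (mul_mem (mul_mem v1 o) u1)
  obtain ⟨z, sz, mz⟩ : ∃ z, P.adj (y 0) z ∧ g • z ≠ z := by
    by_contra! q; exact gk ⟨g1.l, q⟩
  obtain ⟨y', h', e0, rfl, e1⟩ := fr2 hy 0 sz (adj_fix g1.l sz) mz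
  have T' := T.alt0 fh h' e0
  obtain ⟨t, st, p, p'⟩ := thick h' (-1) (-2) 0
  obtain ⟨q, q1, q2, rfl⟩ := trD h' 3 (-1) 0 (-2) 0 1 st p'
  obtain ⟨q3, -, q4⟩ := hon fh T' n (-1) 3 0 2 q2 q1
  have q5 := K.cj ((T'.odd 1).up h' q2 q1) g
  rw [e0] at q3 q1
  obtain ⟨v, h, u, e, h1, h2, v1, u1, cm⟩ := dec4 fh T n (((Fx.one q3.1).up 1 (K.up q3 hy _)).down _ (K.up q3 hy _))
    (step hy 0 sz (ad hy 0 1) q1 (K.up q3 hy _))
  have h3 : h ∈ P.K (y 0) := (mul_mem_cancel_left v1).1 ((mul_mem_cancel_right u1).1 (e ▸ q3))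
  have c1 := (h1.nm g1.l g1.r).mul h1.inv
  have c2 := ((g2.mul h2).mul g2.inv).mul h2.inv
  have c3 := mul_mem (K.nm h3 g1.l) (inv_mem h3)
  have e2 : g * q * g⁻¹ * q⁻¹ = g * h * g⁻¹ * h⁻¹ := by
    calc _ = (g * v) * h * (u * g⁻¹) * u⁻¹ * h⁻¹ * v⁻¹ := by rw [e]; group
      _ = v * (g * h * g⁻¹ * h⁻¹) * v⁻¹ := by rw [(cm g g1 g2).1, ← (cm _ g1.inv g2.inv).2]; group
      _ = _ := by rw [← (cm _ c1 c2).1]; group
  rw [← e2] at c1 c2 c3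
  have e3 : q * (g * q * g⁻¹ * q⁻¹) = g * q * g⁻¹ * q⁻¹ * q := by
    generalize g * q * g⁻¹ * q⁻¹ = c at *
    rw [e, mul_assoc, ← (cm _ c1 c2).2, mul_assoc, ← mul_assoc h, cm4 fh T n g1 g2 gk h1 h2 h3 c1 c2 c3, mul_assoc,
      ← mul_assoc v, ← (cm _ c1 c2).1]
    simp only [mul_assoc]
  have c4 : g * q * g⁻¹ * q⁻¹ * (g * q * g⁻¹ * q⁻¹) = 1 := by
    nth_rw 1 [inv_eq_of_mul_eq_one_right q4]
    rw [mul_assoc, e3, inv_mul_cancel_right, conj_mul, q4]; simp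
  have k : g * q * g⁻¹ * q⁻¹ ∈ P.K (y' (-1)) := by
    by_cases o : g * q * g⁻¹ * q⁻¹ = 1
    · exact o ▸ one_mem _
    obtain ⟨z, z1, hz⟩ := exZc fh T (by omega) 0
    rw [uq fh hy (T.ev 2) c2 (hz.fx hy 0 (-2) 2) c1 (hz _ (ad hy 0 1)).f c4 (hz _ (ad hy 0 1)).sq o z1]
    exact Zc.K h' 0 (e0 ▸ hz) _
  rw [← e1] at q5
  exact p (K.up (inv_mem_iff.1 ((mul_mem_cancel_left q5).1 k)) h' _)

theorem F4.par (hx : P.Fr x) (i j : ℤ) (k : P.F4 (x i)) (e : (i + j) % 2 = 0 := by omega) : P.F4 (x j) := fun a b c => by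
  obtain ⟨r, hr⟩ := refl hx ((i + j) / 2)
  obtain ⟨v, s, p, q, t⟩ := k (r⁻¹ • a) (r⁻¹ • b) (r⁻¹ • c)
  exact ⟨r • v, by simpa [hr, show 2 * ((i + j) / 2) - i = j by omega] using P.inv r s, fun o => p (by simp [← o]),
    fun o => q (by simp [← o]), fun o => t (by simp [← o])⟩

theorem reg_all (fh : P.Fh) (n : P.n = 4 ∨ P.n = 6 ∨ P.n = 8) (hx : P.Fr x)
    (h8 : P.n = 8 → ¬ P.Reg (x 0) → P.F4 (x 1)) : P.Reg (x 0) := by
  by_contra r0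
  have dc : ∀ i, ¬ P.Reg (x i) → P.Exc (x i) := fun i r => by simpa using fh.dich (P.shift i hx) (by simpa using r)
  have nr : ∀ k, k % 2 = 0 → ¬ P.Reg (x k) := fun k p q => r0 (q.par hx _ _)
  by_cases r1 : P.Reg (x 1)
  · have T : P.Two x := ⟨hx, fun k p => r1.par hx _ _, fun k p => dc k (nr k p), nr⟩
    rcases n with n | n | n
    exacts [m4' fh T n, m6 fh T n, m8 fh T n ((h8 n r0).par hx _ _) ((h8 n r0).par hx _ _)]
  · refine both hx fun k => dc k fun q => ?_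
    by_cases o : k % 2 = 0
    exacts [r0 (q.par hx _ _), r1 (q.par hx _ _)]

end SPoly
end CF.BN2
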