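import Cfsg.Agent.Tb.L

/-! Root group sequences of Moufang quadrangles: the shift lemmas. -/

set_option autoImplicit false

namespace CF.Tb

/-- the reversed sequence of a quadrangle -/
def rv4 {G : Type*} [Group G] (X : ℕ → Subgroup G) (t : ℕ) : Subgroup G := X (3 + 7 * t)

namespace Qd

open Subgroup
open scoped commutatorElement

variable {G : Type*} [Group G] {X : ℕ → Subgroup G} {r s t i j : ℕ}
  {g x y u v w a b c d u' v' a' b' c' κ l n κ' l' n' : G}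

/-- root group sequences of quadrangles -/
abbrev H4 (X : ℕ → Subgroup G) : Prop := MP 4 X

/-- the commutator relation `u⁻¹ v u = a b v` -/
structure R (X : ℕ → Subgroup G) (t : ℕ) (u a b v : G) : Prop where
  h0 : u ∈ X t
  h1 : a ∈ X (t + 1)
  h2 : b ∈ X (t + 2)
  h3 : v ∈ X (t + 3)
  e : u⁻¹ * v * u = a * b * v

/-- `μ`-elements with their factors -/
structure Mk (X : ℕ → Subgroup G) (t : ℕ) (κ u l n : G) : Prop where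
  hk : κ ∈ X (t + 4)
  hu : u ∈ X t
  hl : l ∈ X (t + 4)
  e : n = κ * u * l
  f : ∀ r r', (r + r') % 8 = (2 * t + 4) % 8 → ∀ x, x ∈ X r ↔ n * x * n⁻¹ ∈ X r'

/-- the elements of `X t` centralising `X (t + 2)` -/
def Yq (X : ℕ → Subgroup G) (t : ℕ) : Subgroup G := X t ⊓ centralizer (X (t + 2))

theorem Mk.mu (h : Mk X t κ u l n) : Mu 4 X t u n := ⟨⟨κ, h.hk, l, h.hl, h.e⟩, h.f⟩

theorem Mk.cj (h : Mk X t κ u l n) (hx : x ∈ X r) (e : (r + s) % 8 = (2 * t + 4) % 8 := by omega) :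
    n * x * n⁻¹ ∈ X s := (h.f r s e x).1 hx

theorem Mk.cj' (h : Mk X t κ u l n) (hx : x ∈ X r) (e : (r + s) % 8 = (2 * t + 4) % 8 := by omega) :
    n⁻¹ * x * n ∈ X s := (h.f s r (by omega) _).2 (by simpa [mul_assoc] using hx)

theorem Mk.inv (h : Mk X t κ u l n) : Mk X t l⁻¹ u⁻¹ κ⁻¹ n⁻¹ :=
  ⟨inv_mem h.hl, inv_mem h.hu, inv_mem h.hk, by rw [h.e]; group, fun r r' e x =>
    ⟨fun hx => by simpa using h.cj' hx, fun hx => by simpa [mul_assoc] using h.cj (s := r) hx⟩⟩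

theorem Mk.comm (h : Mk X t κ u l n) (h1 : Commute g κ) (h2 : Commute g u) (h3 : Commute g l) : Commute g n :=
  h.e ▸ (h1.mul_right h2).mul_right h3

theorem R.cm (h : R X t u a b v) : ⁅u⁻¹, v⁆ = a * b := by
  rw [commutatorElement_def, inv_inv, h.e, mul_inv_cancel_right]

theorem R.conj (h : R X t u a b v) (g : G) (h0 : g * u * g⁻¹ ∈ X t) (h1 : g * a * g⁻¹ ∈ X (t + 1))
    (h2 : g * b * g⁻¹ ∈ X (t + 2)) (h3 : g * v * g⁻¹ ∈ X (t + 3)) :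
    R X t (g * u * g⁻¹) (g * a * g⁻¹) (g * b * g⁻¹) (g * v * g⁻¹) :=
  ⟨h0, h1, h2, h3, by
    rw [show (g * u * g⁻¹)⁻¹ * (g * v * g⁻¹) * (g * u * g⁻¹) = g * (u⁻¹ * v * u) * g⁻¹ by group, h.e]; group⟩

theorem R.one_l (hv : v ∈ X (t + 3)) : R X t 1 1 1 v := ⟨one_mem _, one_mem _, one_mem _, hv, by simp⟩

theorem R.one_r (hu : u ∈ X t) : R X t u 1 1 1 := ⟨hu, one_mem _, one_mem _, one_mem _, by simp⟩

theorem Yq.cm (h : y ∈ Yq X t) (hx : x ∈ X (t + 2)) : Commute y x := (h.2 x hx).symm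

namespace H4

variable (M : H4 X)
include M

theorem eq (h : i % 8 = j % 8) : X i = X j := per_mod M.per h

theorem mv (hx : x ∈ X i) (h : i % 8 = j % 8 := by omega) : x ∈ X j := M.eq h ▸ hx

theorem c1 (hx : x ∈ X i) (hy : y ∈ X j) (h : (i + 1) % 8 = j % 8 := by omega) : Commute x y :=
  MP.c1 M (by omega) i x hx y (M.mv hy)

theorem c2 (hx : x ∈ X i) (hy : y ∈ X j) (h : (i + 2) % 8 = j % 8 := by omega)
    (h' : (i + 1) % 8 = s % 8 := by omega) : ⁅x, y⁆ ∈ X s :=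
  M.mv (MP.c2 M (by omega) i x hx y (M.mv hy))

theorem c2' (hx : x ∈ X j) (hy : y ∈ X i) (h : (i + 2) % 8 = j % 8 := by omega)
    (h' : (i + 1) % 8 = s % 8 := by omega) : ⁅x, y⁆ ∈ X s := by
  rw [← commutatorElement_inv]; exact inv_mem (M.c2 hy hx)

theorem exR (hu : u ∈ X t) (hv : v ∈ X (t + 3)) : ∃ a b, R X t u a b v := by
  obtain ⟨a, h1, b, h2, e⟩ := MP.c3 M t (inv_mem hu) hv
  exact ⟨a, b, hu, h1, h2, hv, by rw [← e]; group⟩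

theorem uq (ha : a ∈ X t) (ha' : a' ∈ X t) (hb : b ∈ Yy X (t + 1) (t + 4)) (hb' : b' ∈ Yy X (t + 1) (t + 4))
    (e : a * b = a' * b') : a = a' ∧ b = b' := by
  have e1 : a'⁻¹ * a = b' * b⁻¹ := by rw [inv_mul_eq_iff_eq_mul, ← mul_assoc, ← e]; group
  have := M.disj t _ (mul_mem (inv_mem ha') ha) (e1 ▸ mul_mem hb' (inv_mem hb))
  exact ⟨(inv_mul_eq_one.1 this).symm, (mul_inv_eq_one.1 (e1 ▸ this)).symm⟩

theorem uq2 (ha : a ∈ X t) (ha' : a' ∈ X t) (hb : b ∈ X (t + 1)) (hb' : b' ∈ X (t + 1))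
    (e : a * b = a' * b') : a = a' ∧ b = b' :=
  M.uq ha ha' (le_Yy le_rfl (by omega) hb) (le_Yy le_rfl (by omega) hb') e

theorem uq3 (ha : a ∈ X t) (ha' : a' ∈ X t) (hb : b ∈ X (t + 1)) (hb' : b' ∈ X (t + 1))
    (hc : c ∈ X (t + 2)) (hc' : c' ∈ X (t + 2)) (e : a * b * c = a' * b' * c') : a = a' ∧ b = b' ∧ c = c' := by
  have h : ∀ {b c : G}, b ∈ X (t + 1) → c ∈ X (t + 2) → b * c ∈ Yy X (t + 1) (t + 4) := fun hb hc =>
    mul_mem (le_Yy le_rfl (by omega) hb) (le_Yy (by omega) (by omega) hc)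
  have := M.uq ha ha' (h hb hc) (h hb' hc') (by simpa only [mul_assoc] using e)
  exact ⟨this.1, M.uq2 hb hb' hc hc' this.2⟩

theorem ruq (h : R X t u a b v) (h' : R X t u a' b' v) : a = a' ∧ b = b' :=
  M.uq2 h.h1 h'.h1 h.h2 h'.h2 (h.cm.symm.trans h'.cm)

theorem rmv (h : R X t u a b v) (e : t % 8 = s % 8 := by omega) : R X s u a b v :=
  ⟨M.mv h.h0, M.mv h.h1, M.mv h.h2, M.mv h.h3, h.e⟩

theorem kmv (h : Mk X t κ u l n) (e : t % 8 = s % 8 := by omega) : Mk X s κ u l n :=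
  ⟨M.mv h.hk, M.mv h.hu, M.mv h.hl, h.e, fun r r' e' => h.f r r' (by omega)⟩

theorem exM (hu : u ∈ X t) (h : u ≠ 1) : ∃ κ l n, Mk X t κ u l n :=
  let ⟨n, ⟨κ, h1, l, h2, e⟩, h3⟩ := M.mu t u hu h; ⟨κ, l, n, h1, hu, h2, e, h3⟩

theorem mul_l (h : R X t u a b v) (h' : R X t u' a' b' v) :
    R X t (u * u') (a * ⁅u'⁻¹, b⁆ * a') (b * b') v := by
  refine ⟨mul_mem h.h0 h'.h0, mul_mem (mul_mem h.h1 (M.c2 (inv_mem h'.h0) h.h2)) h'.h1, mul_mem h.h2 h'.h2, h.h3, ?_⟩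
  calc (u * u')⁻¹ * v * (u * u') = u'⁻¹ * (u⁻¹ * v * u) * u' := by group
    _ = (u'⁻¹ * a) * b * u' * (u'⁻¹ * v * u') := by rw [h.e]; group
    _ = a * ⁅u'⁻¹, b⁆ * (b * a') * b' * v := by rw [h'.e, (M.c1 h'.h0 h.h1).inv_left.eq]; group
    _ = _ := by rw [← (M.c1 h'.h1 h.h2).eq]; group

theorem mul_r (h : R X t u a b v) (h' : R X t u a' b' v') :
    R X t u (a * a') (b * ⁅a'⁻¹, v⁆ * b') (v * v') := by
  refine ⟨h.h0, mul_mem h.h1 h'.h1, mul_mem (mul_mem h.h2 (M.c2 (inv_mem h'.h1) h.h3)) h'.h2, mul_mem h.h3 h'.h3, ?_⟩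
  calc u⁻¹ * (v * v') * u = (u⁻¹ * v * u) * (u⁻¹ * v' * u) := by group
    _ = a * (b * a') * ⁅a'⁻¹, v⁆ * (v * b') * v' := by rw [h.e, h'.e]; group
    _ = _ := by rw [← (M.c1 h'.h1 h.h2).eq, ← (M.c1 h'.h2 h.h3).eq]; group

theorem s1 (h : R X t u a b v) (hm : Mk X t κ u l n) : a = n⁻¹ * v * n ∧ R X (t + 1) a b v l := by
  have h1 : n⁻¹ * v * n ∈ X (t + 1) := hm.cj' h.h3
  obtain ⟨a', b', h2⟩ := M.exR h1 hm.hl
  have e : n⁻¹ * v * n * a' * b' = a * b * v := by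
    rw [mul_assoc _ a', ← h2.cm, ← h.e, show n⁻¹ * v * n * ⁅(n⁻¹ * v * n)⁻¹, l⁆ = l * (n⁻¹ * v * n) * l⁻¹ by group,
      hm.e, show l * ((κ * u * l)⁻¹ * v * (κ * u * l)) * l⁻¹ = u⁻¹ * (κ⁻¹ * v) * κ * u by group,
      ← (M.c1 h.h3 hm.hk).inv_right.eq]
    group
  obtain ⟨e1, e2, e3⟩ := M.uq3 h1 h.h1 h2.h1 h.h2 h2.h2 h.h3 e
  exact ⟨e1.symm, e1 ▸ e2 ▸ e3 ▸ h2⟩

theorem s2 (h : R X t u a b v) (hm : Mk X (t + 3) κ v l n) : b = n * u * n⁻¹ ∧ R X (t + 7) κ u a b := by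
  have h1 : n * u * n⁻¹ ∈ X (t + 7 + 3) := hm.cj h.h0
  obtain ⟨a', b', h2⟩ := M.exR hm.hk h1
  have e : a' * b' * (n * u * n⁻¹) = u * a * b := by
    rw [← h2.e, mul_assoc u, ← h.cm, hm.e, show κ⁻¹ * (κ * v * l * u * (κ * v * l)⁻¹) * κ =
      v * (l * u) * l⁻¹ * v⁻¹ by group, (M.c1 hm.hl h.h0).eq]
    group
  obtain ⟨e1, e2, e3⟩ := M.uq3 h2.h1 (M.mv h.h0) h2.h2 (M.mv h.h1) h1 (M.mv h.h2) e
  exact ⟨e3.symm, e1 ▸ e2 ▸ e3 ▸ h2⟩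

theorem mne (h : Mk X t κ u l n) : u ≠ 1 := by
  rintro rfl
  obtain ⟨v, h1, h2⟩ := M.ne (t + 3)
  have := h.cj (s := t + 1) h1
  rw [← (h.comm (M.c1 h1 h.hk) (.one_right _) (M.c1 h1 h.hl)).eq, mul_inv_cancel_right] at this
  exact h2 (M.disj _ v this (le_Yy (by omega) (by omega) h1))

theorem rt (h : Mk X t κ u l n) : Mk X (t + 4) (n * l * n⁻¹) κ u n :=
  ⟨h.cj h.hl, h.hk, M.mv h.hu, by rw [h.e]; group, fun r r' e => h.f r r' (by omega)⟩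

theorem lf (h : Mk X t κ u l n) : Mk X (t + 4) u l (n⁻¹ * κ * n) n :=
  ⟨M.mv h.hu, h.hl, h.cj' h.hk, by rw [h.e]; group,
    fun r r' e => h.f r r' (by omega)⟩

theorem g2 (hc : c ∈ X (t + 1)) (h : Mk X (t + 3) κ u l n) (e : Commute c u) : Commute c κ ∧ Commute c l := by
  have h1 : ⁅l, c⁆ ∈ X t := M.c2 h.hl hc
  have h2 : n * c * n⁻¹ ∈ X (t + 1) := h.cj hc
  have h3 : ⁅κ⁻¹, n * c * n⁻¹⁆ ∈ X t := M.c2 (inv_mem h.hk) h2
  obtain ⟨a, b, h4⟩ := M.exR h1 h.hu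
  have e1 : ⁅l, c⁆ * (a * c) * b = ⁅κ⁻¹, n * c * n⁻¹⁆ * (n * c * n⁻¹) * 1 := by
    rw [show ⁅l, c⁆ * (a * c) * b = ⁅l, c⁆ * a * (c * b) by group, (M.c1 hc h4.h2).eq,
      show ⁅l, c⁆ * a * (b * c) = ⁅l, c⁆ * (a * b) * c by group, ← h4.cm,
      show ⁅l, c⁆ * ⁅⁅l, c⁆⁻¹, u⁆ * c = u * ⁅l, c⁆ * (u⁻¹ * c) by group, ← e.inv_right.eq, h.e]
    group
  obtain ⟨e2, e3, e4⟩ := M.uq3 h1 h3 (mul_mem h4.h1 hc) h2 h4.h2 (one_mem _) e1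
  have e5 : ⁅l, c⁆ = 1 := by simpa [e4] using (M.s2 h4 h).1.symm
  have e6 := (M.ruq (e5 ▸ h4) (R.one_l h.hu)).1
  rw [e6, one_mul] at e3
  rw [e5, ← e3] at e2
  exact ⟨by simpa using (commutatorElement_eq_one_iff_commute.1 e2.symm).symm.inv_right,
    (commutatorElement_eq_one_iff_commute.1 e5).symm⟩

theorem g2' (hc : c ∈ X (t + 2)) (h : Mk X t κ u l n) (e : Commute c u) : Commute c κ ∧ Commute c l := by
  have h1 : ⁅l, c⁆ ∈ X (t + 3) := M.c2' h.hl hc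
  have h2 : n * c * n⁻¹ ∈ X (t + 2) := h.cj hc
  have h3 : ⁅κ⁻¹, n * c * n⁻¹⁆ ∈ X (t + 3) := M.c2' (inv_mem h.hk) h2
  obtain ⟨a, b, h4⟩ := M.exR (inv_mem h.hu) h1
  have e1 : a * (b * c) * ⁅l, c⁆ = 1 * (n * c * n⁻¹) * ⁅κ⁻¹, n * c * n⁻¹⁆ := by
    rw [one_mul, (M.c1 h2 h3).eq, show a * (b * c) * ⁅l, c⁆ = a * b * (c * ⁅l, c⁆) by group, (M.c1 hc h1).eq,
      ← mul_assoc, ← h4.e, show u⁻¹⁻¹ * ⁅l, c⁆ * u⁻¹ * c = u * ⁅l, c⁆ * (u⁻¹ * c) by group, ← e.inv_right.eq, h.e]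
    group
  obtain ⟨e2, e3, e4⟩ := M.uq3 h4.h1 (one_mem _) (mul_mem h4.h2 hc) h2 h1 h3 e1
  have e5 : ⁅l, c⁆ = 1 := by simpa [e2] using (M.s1 h4 h.inv).1.symm
  have e6 := (M.ruq (e5 ▸ h4) (R.one_r (inv_mem h.hu))).2
  rw [e6, one_mul] at e3
  rw [e5, ← e3] at e4
  exact ⟨by simpa using (commutatorElement_eq_one_iff_commute.1 e4.symm).symm.inv_right,
    (commutatorElement_eq_one_iff_commute.1 e5).symm⟩

theorem ycm (h : y ∈ Yq X t) (hx : x ∈ X s) (e : (t + 2) % 8 = s % 8 := by omega) : Commute y x :=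
  Yq.cm h (M.mv hx)

theorem ycm' (h : y ∈ Yq X t) (hx : x ∈ X s) (e : t % 8 = (s + 2) % 8 := by omega) : Commute y x := by
  by_cases h0 : x = 1
  · exact h0 ▸ .one_right _
  obtain ⟨κ, l, n, h1⟩ := M.exM hx h0
  exact (M.g2 (t := s + 1) (M.mv h.1) (M.rt h1) (M.ycm h h1.hk)).2

theorem ymem (hy : y ∈ X t) (h : ∀ x ∈ X s, Commute y x) (e : (t + 2) % 8 = s % 8 := by omega) : y ∈ Yq X t :=
  ⟨hy, fun x hx => (h x (M.mv hx)).symm⟩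

theorem ymem' (hy : y ∈ X t) (h : ∀ x ∈ X s, Commute y x) (e : t % 8 = (s + 2) % 8 := by omega) :
    y ∈ Yq X t := by
  refine ⟨hy, fun x hx => ?_⟩
  by_cases h0 : x = 1
  · simp [h0]
  obtain ⟨κ, l, n, h1⟩ := M.exM hx h0
  exact (M.g2' (t := t + 2 + 4) (M.mv hy) (M.rt h1) (h _ (M.mv h1.hk))).2.symm

theorem ymv (h : y ∈ Yq X t) (e : t % 8 = s % 8 := by omega) : y ∈ Yq X s :=
  M.ymem (s := t + 2) (M.mv h.1) fun _ hx => M.ycm h hx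

theorem ycj (h : Mk X t κ u l n) (hy : y ∈ Yq X r) (e : (r + s) % 8 = (2 * t + 4) % 8 := by omega) :
    n * y * n⁻¹ ∈ Yq X s :=
  M.ymem' (s := s + 6) (h.cj hy.1) fun x hx => by
    simpa [mul_assoc] using (Yq.cm hy (h.cj' hx)).conj n

theorem ycj' (h : Mk X t κ u l n) (hy : y ∈ Yq X r) (e : (r + s) % 8 = (2 * t + 4) % 8 := by omega) :
    n⁻¹ * y * n ∈ Yq X s := by simpa using M.ycj h.inv hy

theorem yk (h : Mk X t κ u l n) (hu : u ∈ Yq X t) : κ ∈ Yq X (t + 4) ∧ l ∈ Yq X (t + 4) :=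
  ⟨M.ymem' (s := t + 2) h.hk fun _ hx => (M.g2' hx h (Yq.cm hu hx).symm).1.symm,
    M.ymem' (s := t + 2) h.hl fun _ hx => (M.g2' hx h (Yq.cm hu hx).symm).2.symm⟩

/-- `μ(u)` centralises the elements of `Yq (t + 2)` -/
theorem ymu (h : Mk X t κ u l n) (hy : y ∈ Yq X (t + 2)) : Commute y n :=
  h.comm (M.ycm hy h.hk) (M.ycm' hy h.hu) (M.ycm hy h.hl)

/-- `μ(y)` centralises the neighbours -/
theorem muy (h : Mk X t κ y l n) (hy : y ∈ Yq X t) (hx : x ∈ X s)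
    (e : (t + 2) % 4 = s % 4 := by omega) : Commute x n := by
  obtain ⟨h1, h2⟩ := M.yk h hy
  rcases (by omega : (t + 2) % 8 = s % 8 ∨ t % 8 = (s + 2) % 8) with e | e
  exacts [h.comm (M.ycm' h1 hx).symm (M.ycm hy hx).symm (M.ycm' h2 hx).symm,
    h.comm (M.ycm h1 hx).symm (M.ycm' hy hx).symm (M.ycm h2 hx).symm]

theorem ry (h : R X t u a b v) (hu : u ∈ Yq X t) : b ∈ Yq X (t + 2) := by
  by_cases e : v = 1
  · subst e; rw [(M.ruq h (R.one_r h.h0)).2]; exact one_mem _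
  obtain ⟨κ, l, n, h1⟩ := M.exM h.h3 e
  exact (M.s2 h h1).1 ▸ M.ycj h1 hu

theorem ry' (h : R X t u a b v) (hv : v ∈ Yq X (t + 3)) : a ∈ Yq X (t + 1) := by
  by_cases e : u = 1
  · subst e; rw [(M.ruq h (R.one_l h.h3)).1]; exact one_mem _
  obtain ⟨κ, l, n, h1⟩ := M.exM h.h0 e
  exact (M.s1 h h1).1 ▸ M.ycj' h1 hv

theorem cz (hx : x ∈ X t) (hy : y ∈ X (t + 2)) (hc : c ∈ X (t + 1)) : Commute c ⁅x, y⁆ :=
  have e1 := (M.c1 hx hc).symm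
  have e2 := M.c1 hc hy
  ((e1.mul_right e2).mul_right e1.inv_right).mul_right e2.inv_right

theorem cj2 (h : R X t u a b v) (hx : x ∈ X (t + 1)) : u⁻¹ * ⁅x, v⁆ * u = ⁅x, a⁆ * ⁅x, v⁆ := by
  have h1 : ⁅x, v⁆ ∈ X (t + 2) := M.c2 hx h.h3
  rw [show u⁻¹ * ⁅x, v⁆ * u = ⁅u⁻¹ * (x * u), u⁻¹ * v * u⁆ by group, ← (M.c1 h.h0 hx).eq, inv_mul_cancel_left,
    h.e, mul_assoc, cm_mul_r, cm_mul_r (M.cz hx h.h3 h.h2), (M.c1 hx h.h2).commutator_eq, one_mul]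
  rw [cm_mul_r (M.cz hx h.h3 h.h2), (M.c1 hx h.h2).commutator_eq, one_mul]
  exact M.c1 h.h1 h1

theorem cmY (h : ∀ x ∈ X (t + 1), ∀ y ∈ X (t + 1), Commute x y) (hx : x ∈ X (t + 1)) (hv : v ∈ X (t + 3)) :
    ⁅x, v⁆ ∈ Yq X (t + 2) :=
  M.ymem' (s := t) (M.c2 hx hv) fun u hu => by
    obtain ⟨a, b, h1⟩ := M.exR hu hv
    have := M.cj2 h1 hx
    rw [(h x hx a h1.h1).commutator_eq, one_mul, mul_assoc, inv_mul_eq_iff_eq_mul] at this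
    exact this

theorem ab (hy : y ∈ Yq X t) (h0 : y ≠ 1) : ∀ x ∈ X (t + 1), ∀ a ∈ X (t + 1), Commute x a := fun x hx a ha => by
  obtain ⟨κ, l, n, h1⟩ := M.exM hy.1 h0
  obtain ⟨a', b, h2⟩ := M.exR hy.1 (h1.cj (s := t + 3) ha)
  have := M.cj2 h2 hx
  rw [mul_assoc, ← (Yq.cm hy (M.c2 hx h2.h3)).eq, inv_mul_cancel_left, (M.s1 h2 h1).1, eq_comm, mul_eq_right] at this
  simpa [mul_assoc] using commutatorElement_eq_one_iff_commute.1 this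

theorem exY : (∃ y ∈ Yq X 0, y ≠ 1) ∨ ∃ y ∈ Yq X 3, y ≠ 1 := by
  by_contra! h
  obtain ⟨u, h1, h2⟩ := M.ne 3
  obtain ⟨κ, l, n, h3⟩ := M.exM h1 h2
  have h4 : ∀ y ∈ Yq X 2, y = 1 := fun y hy => by simpa using h.1 _ (M.ycj h3 hy)
  have h5 : ∀ x ∈ X 2, ∀ y ∈ X 2, Commute x y := fun x hx y hy =>
    commutatorElement_eq_one_iff_commute.1 (h4 _ (M.ymem (s := 4) (commutatorElement_def x y ▸ mul_mem (mul_mem
      (mul_mem hx hy) (inv_mem hx)) (inv_mem hy)) fun v hv => by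
      have e : ∀ x ∈ X 2, ∀ y ∈ X 2, ⁅x * y, v⁆ = ⁅y, v⁆ * ⁅x, v⁆ := fun x hx y hy =>
        cm_mul_l (M.c1 hx (M.c2 (s := 3) hy hv))
      have e1 : ⁅x * y, v⁆ = ⁅y * x, v⁆ := by
        rw [e x hx y hy, e y hy x hx]; exact (M.cz hx hv (M.c2 hy hv)).eq
      have e2 := e _ (show ⁅x, y⁆ ∈ X 2 from commutatorElement_def x y ▸ mul_mem (mul_mem
        (mul_mem hx hy) (inv_mem hx)) (inv_mem hy)) _ (mul_mem hy hx)
      rw [show ⁅x, y⁆ * (y * x) = x * y by group, e1, left_eq_mul] at e2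
      exact commutatorElement_eq_one_iff_commute.1 e2))
  obtain ⟨x, h6, h7⟩ := M.ne 2
  exact h7 (h4 x (M.ymem (s := 4) h6 fun v hv =>
    commutatorElement_eq_one_iff_commute.1 (h.2 _ (M.cmY (t := 1) h5 h6 hv))))

theorem rY {a b : ℕ} (h1 : i + b = 8 * s + 4) (h2 : a + j = 8 * s + 4) : Yy (rv4 X) a b = Yy X i j :=
  le_antisymm (Yy_le fun t _ _ _ h => le_Yy (t := 8 * s + 3 - t) (by omega) (by omega) (M.mv (i := 3 + 7 * t) h))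
    (Yy_le fun t _ _ _ h => le_Yy (X := rv4 X) (t := 8 * s + 3 - t) (by omega) (by omega)
      (M.mv (j := 3 + 7 * (8 * s + 3 - t)) h))

theorem rev : H4 (rv4 X) := by
  refine ⟨fun t => M.eq (by omega), fun a b h1 h2 x hx y hy => ?_, fun a x hx h => ?_, fun a b h1 x hx h => ?_,
    fun t u hu h => ?_, fun t => M.ne _⟩
  · rw [M.rY (s := b) (i := 8 * b + 3 - b + 1) (j := 8 * b + 3 - a) (by omega) (by omega)]
    simpa [mul_assoc] using inv_mem (M.comm (8 * b + 3 - b) (8 * b + 3 - a) (by omega) (by omega) y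
      (M.mv (i := 3 + 7 * b) hy) x (M.mv (i := 3 + 7 * a) hx))
  · rw [M.rY (s := a) (i := 8 * a - a) (j := 8 * a + 3 - a) (by omega) (by omega)] at h
    exact M.disj' _ _ (by omega) x (M.mv (i := 3 + 7 * a) hx) h
  · rcases le_or_gt b a with h2 | h2
    · exact Yy_self h2 h
    rw [M.rY (s := b) (i := 8 * b + 3 - b + 1) (j := 8 * b + 4 - a) (by omega) (by omega)] at h
    exact M.disj _ x (M.mv (i := 3 + 7 * b) hx) (Yy_mono le_rfl (by omega) h)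
  · obtain ⟨n, ⟨κ, h1, l, h2, e⟩, h3⟩ := M.mu _ u hu h
    exact ⟨n, ⟨κ, M.mv (j := 3 + 7 * (t + 4)) h1, l, M.mv (j := 3 + 7 * (t + 4)) h2, e⟩,
      fun r r' e x => h3 _ _ (by omega) x⟩

theorem rev_rev : rv4 (rv4 X) = X := funext fun t => M.eq (i := 3 + 7 * (3 + 7 * t)) (by omega)

theorem rev_Y (h : y ∈ Yq X 3) : y ∈ Yq (rv4 X) 0 :=
  ⟨h.1, fun _ hx => (M.ycm' (s := 3 + 7 * (0 + 2)) h hx).symm⟩

end H4

end Qd

end CF.Tb
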