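import Cfsg.Agent.Mp.QA

/-! Finite Moufang quadrangles: the field of central root elements. -/

set_option autoImplicit false

namespace CF.Tb.Qd

open Subgroup
open scoped commutatorElement IsMulCommutative

universe u

variable {G : Type u} [Group G] {X : ℕ → Subgroup G}

/-- additive coordinates in an abelian group -/
structure Cl {L : Type*} [AddCommGroup L] (x : L → G) (A : Subgroup G) : Prop where
  add : ∀ a b, x (a + b) = x a * x b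
  inj : Function.Injective x
  mem : ∀ g, g ∈ A ↔ ∃ a, x a = g

namespace Cl

variable {L : Type*} [AddCommGroup L] {x : L → G} {A : Subgroup G} (h : Cl x A)
include h

theorem zero : x 0 = 1 := by simpa using (h.add 0 0).symm

theorem neg (a : L) : x (-a) = (x a)⁻¹ := eq_inv_of_mul_eq_one_left (by rw [← h.add, neg_add_cancel, h.zero])

theorem mem' (a : L) : x a ∈ A := (h.mem _).2 ⟨a, rfl⟩

theorem eq_one {a : L} : x a = 1 ↔ a = 0 := by rw [← h.zero, h.inj.eq_iff]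

theorem ne {a : L} (ha : a ≠ 0) : x a ≠ 1 := fun e => ha (h.eq_one.1 e)

theorem conj {B : Subgroup G} {g : G} (e : ∀ u, u ∈ A ↔ g * u * g⁻¹ ∈ B) : Cl (fun a => g * x a * g⁻¹) B :=
  ⟨fun a b => by rw [h.add]; group, fun a b e => h.inj (by simpa using e), fun v => ⟨fun hv =>
    let ⟨a, e'⟩ := (h.mem _).1 ((e (g⁻¹ * v * g)).2 (by simpa [mul_assoc] using hv))
    ⟨a, by rw [e']; group⟩, fun ⟨a, e'⟩ => e' ▸ (e _).1 (h.mem' a)⟩⟩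

end Cl

/-- first coordinates -/
structure S1 (X : ℕ → Subgroup G) {K L : Type*} [Field K] [AddCommGroup L] [Module K L] (k : K → G)
    (x1 x3 : L → G) : Prop where
  ck : Cl k (Yq X 0)
  c1 : Cl x1 (X 1)
  c3 : Cl x3 (X 3)
  r : ∀ t v, ∃ b, R X 0 (k t) (x1 (t • v)) b (x3 v)

theorem H4.exS1 [Finite G] (M : H4 X) {y0 : G} (hy : y0 ∈ Yq X 0) (h0 : y0 ≠ 1) :
    ∃ (K : Type) (_ : Field K) (_ : Fintype K) (L : Type u) (_ : AddCommGroup L) (_ : Module K L) (_ : Finite L)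
      (k : K → G) (x1 x3 : L → G), S1 X k x1 x3 := by
  obtain ⟨κ, w0, n, h1⟩ := M.exM hy.1 h0
  have a1 := M.ab hy h0
  have a3 : ∀ x ∈ X 3, ∀ y ∈ X 3, Commute x y := fun x hx y hy => by
    simpa [mul_assoc] using (a1 _ (h1.cj' hx) _ (h1.cj' hy)).conj n
  haveI : IsMulCommutative (X 3) := ⟨⟨fun a b => Subtype.ext (a3 _ a.2 _ b.2)⟩⟩
  choose! A A' hA using fun u v (h : u ∈ X 0 ∧ v ∈ X 3) => M.exR (t := 0) h.1 h.2
  choose! B' B hB using fun c w (h : c ∈ X 1 ∧ w ∈ X 4) => M.exR (t := 1) h.1 h.2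
  have A1 : ∀ {u v}, u ∈ X 0 → v ∈ X 3 → A u v ∈ X 1 := fun hu hv => (hA _ _ ⟨hu, hv⟩).h1
  have B1 : ∀ {c w}, c ∈ X 1 → w ∈ X 4 → B c w ∈ X 3 := fun hu hv => (hB _ _ ⟨hu, hv⟩).h2
  have A2 : ∀ {u v v'}, u ∈ X 0 → v ∈ X 3 → v' ∈ X 3 → A u (v * v') = A u v * A u v' := fun hu hv hv' =>
    (M.ruq (hA _ _ ⟨hu, mul_mem hv hv'⟩) (M.mul_r (hA _ _ ⟨hu, hv⟩) (hA _ _ ⟨hu, hv'⟩))).1
  have B2 : ∀ {c c' w}, c ∈ X 1 → c' ∈ X 1 → w ∈ X 4 → B (c * c') w = B c w * B c' w := fun hu hu' hv =>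
    (M.ruq (hB _ _ ⟨mul_mem hu hu', hv⟩) (M.mul_l (hB _ _ ⟨hu, hv⟩) (hB _ _ ⟨hu', hv⟩))).2
  have A3 : ∀ {u u' v}, u ∈ Yq X 0 → u' ∈ Yq X 0 → v ∈ X 3 → A (u * u') v = A u v * A u' v := fun hu hu' hv => by
    have := (M.ruq (hA _ _ ⟨mul_mem hu.1 hu'.1, hv⟩) (M.mul_l (hA _ _ ⟨hu.1, hv⟩) (hA _ _ ⟨hu'.1, hv⟩))).1
    rwa [(Yq.cm (inv_mem hu') (hA _ _ ⟨hu.1, hv⟩).h2).commutator_eq, mul_one] at this
  have B3 : ∀ {c w w'}, c ∈ X 1 → w ∈ Yq X 4 → w' ∈ Yq X 4 → B c (w * w') = B c w * B c w' := fun hc hw hw' => by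
    have := (M.ruq (hB _ _ ⟨hc, mul_mem hw.1 hw'.1⟩) (M.mul_r (hB _ _ ⟨hc, hw.1⟩) (hB _ _ ⟨hc, hw'.1⟩))).2
    rwa [(M.ycm' hw (inv_mem (hB _ _ ⟨hc, hw'.1⟩).h1)).symm.commutator_eq, mul_one] at this
  have A4 : ∀ {κ u l n v}, Mk X 0 κ u l n → v ∈ X 3 → A u v = n⁻¹ * v * n := fun h hv =>
    (M.s1 (hA _ _ ⟨h.hu, hv⟩) h).1
  have B4 : ∀ {κ u l n c}, Mk X 0 κ u l n → c ∈ X 1 → B c l = n * c * n⁻¹ := fun h hc =>
    (M.s2 (hB _ _ ⟨hc, h.hl⟩) (M.lf h)).1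
  have A5 : ∀ {v}, v ∈ X 3 → A 1 v = 1 := fun hv => (M.ruq (hA _ _ ⟨one_mem _, hv⟩) (R.one_l hv)).1
  have B5 : ∀ {c}, c ∈ X 1 → B c 1 = 1 := fun hv => (M.ruq (hB _ _ ⟨hv, one_mem _⟩) (R.one_r hv)).2
  obtain ⟨E, E0⟩ : ∃ E : Yq X 0 → Yq X 4 → AddMonoid.End (Additive (X 3)), ∀ u w c,
      ((E u w c).toMul : G) = B (A u c.toMul) w := ⟨fun u w => AddMonoidHom.mk'
    (fun c => Additive.ofMul ⟨B (A u c.toMul) w, B1 (A1 u.2.1 c.toMul.2) w.2.1⟩) fun a b =>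
      congrArg Additive.ofMul (Subtype.ext ((congrArg (B · w) (A2 u.2.1 a.toMul.2 b.toMul.2)).trans
        (B2 (A1 u.2.1 a.toMul.2) (A1 u.2.1 b.toMul.2) w.2.1))), fun _ _ _ => rfl⟩
  have hE : ∀ f g : AddMonoid.End (Additive (X 3)), (∀ c, ((f c).toMul : G) = (g c).toMul) → f = g :=
    fun f g e => AddMonoidHom.ext fun c => Additive.toMul.injective (Subtype.ext (e c))
  have h2 := (M.yk h1 hy).2
  have E1 : ∀ u u' w, E (u * u') w = E u w + E u' w := fun u u' w => hE _ _ fun c => by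
    rw [E0, show ((E u w + E u' w) c).toMul = (E u w c).toMul * (E u' w c).toMul from rfl, coe_mul, coe_mul, E0, E0,
      A3 u.2 u'.2 c.toMul.2, B2 (A1 u.2.1 c.toMul.2) (A1 u'.2.1 c.toMul.2) w.2.1]
  have E2 : ∀ u w w', E u (w * w') = E u w + E u w' := fun u w w' => hE _ _ fun c => by
    rw [E0, show ((E u w + E u w') c).toMul = (E u w c).toMul * (E u w' c).toMul from rfl, coe_mul, coe_mul, E0, E0,
      B3 (A1 u.2.1 c.toMul.2) w.2 w'.2]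
  have E3 : ∀ w, E 1 w = 0 := fun w => by simpa using E1 1 1 w
  have E4 : ∀ u, E u 1 = 0 := fun u => by simpa using E2 u 1 1
  have E5 : ∀ {κ l n κ' u' n'} {u : Yq X 0} {l' : Yq X 4} (_ : Mk X 0 κ u l n) (_ : Mk X 0 κ' u' l' n') c,
      ((E u l' c).toMul : G) = n' * (n⁻¹ * c.toMul * n) * n'⁻¹ := fun {_ _ _ _ _ _ u _} h h' c => by
    rw [E0, B4 h' (A1 u.2.1 c.toMul.2), A4 h c.toMul.2]
  obtain ⟨y, rfl⟩ : ∃ y : Yq X 0, y = y0 := ⟨⟨_, hy⟩, rfl⟩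
  obtain ⟨w, rfl⟩ : ∃ w : Yq X 4, w = w0 := ⟨⟨_, h2⟩, rfl⟩
  let J : AddSubgroup (AddMonoid.End (Additive (X 3))) :=
    { carrier := {f | ∃ u, f = E u w}
      zero_mem' := ⟨1, (E3 _).symm⟩
      add_mem' := by rintro _ _ ⟨u, rfl⟩ ⟨v, rfl⟩; exact ⟨u * v, (E1 ..).symm⟩
      neg_mem' := by
        rintro _ ⟨u, rfl⟩
        exact ⟨u⁻¹, neg_eq_of_add_eq_zero_right (by rw [← E1, mul_inv_cancel, E3])⟩ }
  let J' : AddSubgroup (AddMonoid.End (Additive (X 3))) :=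
    { carrier := {f | ∃ w, f = E y w}
      zero_mem' := ⟨1, (E4 _).symm⟩
      add_mem' := by rintro _ _ ⟨u, rfl⟩ ⟨v, rfl⟩; exact ⟨u * v, (E2 ..).symm⟩
      neg_mem' := by
        rintro _ ⟨u, rfl⟩
        exact ⟨u⁻¹, neg_eq_of_add_eq_zero_right (by rw [← E2, mul_inv_cancel, E4])⟩ }
  have E6 : E y w = 1 := hE _ _ fun c => (E5 h1 h1 c).trans (by simp [mul_assoc])
  have E7 : ∀ {κ n} {u : Yq X 0} {l : Yq X 4} (_ : Mk X 0 κ u l n), E u w * E y l = 1 := fun h =>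
    hE _ _ fun c => (E5 h h1 _).trans (by erw [E5 h1 h c]; simp [mul_assoc])
  have hJ : 1 ∈ J := ⟨y, E6.symm⟩
  obtain ⟨c0, h10, h11⟩ := M.ne 3
  haveI : Nontrivial (AddMonoid.End (Additive (X 3))) := ⟨1, 0, fun e => h11 (congrArg
    (fun f : AddMonoid.End (Additive (X 3)) => ((f (Additive.ofMul ⟨c0, h10⟩)).toMul : G)) e)⟩
  haveI : Finite (AddMonoid.End (Additive (X 3))) := DFunLike.finite _
  have E8 : ∀ u, u ≠ 1 → ∃ l, E u w * E y l = 1 := fun u e => by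
    obtain ⟨κ', l, n', h⟩ := M.exM u.2.1 fun e' => e (Subtype.ext e')
    exact ⟨⟨l, (M.yk h u.2).2⟩, E7 h⟩
  have hu := Perm.inv_mem_of_pair J J' hJ ⟨w, E6.symm⟩ (by
    rintro _ ⟨u, rfl⟩ e
    obtain ⟨l, h⟩ := E8 u (by rintro rfl; exact e (E3 _))
    exact ⟨_, ⟨l, rfl⟩, h⟩) (by
    rintro _ ⟨w', rfl⟩ e
    obtain ⟨κ', l, n', h⟩ := M.exM w'.2.1 fun e' => e (by rw [show w' = 1 from Subtype.ext e', E4])
    exact ⟨_, ⟨⟨κ', M.ymv (M.yk h w'.2).1⟩, rfl⟩, mul_eq_one_comm.1 (E7 (M.kmv (M.rt h)))⟩)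
  obtain ⟨K, _, _, ι, hι⟩ := PLocal.exists_field_of_jordan J hJ hu
  choose k hk using fun a => (hι _).2 ⟨a, rfl⟩
  have h12 : ∀ u v, E u w = E v w → u = v := fun u v e => by_contra fun e' => by
    obtain ⟨l, h⟩ := E8 _ (mt mul_inv_eq_one.1 e')
    rw [E1, e, ← E1, mul_inv_cancel, E3, zero_mul] at h
    exact zero_ne_one h
  letI : Module K (Additive (X 3)) := Module.compHom _ ι
  have c3 : Cl (fun c : Additive (X 3) => (c.toMul : G)) (X 3) := ⟨fun _ _ => rfl, fun a b e =>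
    Additive.toMul.injective (Subtype.ext e), fun g => ⟨fun h => ⟨Additive.ofMul ⟨g, h⟩, rfl⟩,
      fun ⟨a, e⟩ => e ▸ a.toMul.2⟩⟩
  refine ⟨K, inferInstance, inferInstance, Additive (X 3), inferInstance, inferInstance, inferInstance,
    fun a => k a, _, _, ⟨fun a b => congrArg Subtype.val (h12 (k _) (k a * k b) ?_), fun a b e => ι.injective ?_,
      fun g => ⟨fun hg => ?_, fun ⟨a, e⟩ => e ▸ (k a).2⟩⟩, c3.conj (h1.inv.f 3 1 rfl), c3,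
      fun t v => ⟨A' (k t) v.toMul, ?_⟩⟩
  · rw [E1, ← hk, ← hk, ← hk, map_add]
  · rw [hk, hk, Subtype.ext e]
  · obtain ⟨a, e⟩ := (hι _).1 ⟨⟨g, hg⟩, rfl⟩
    exact ⟨a, congrArg Subtype.val (h12 (k a) ⟨g, hg⟩ ((hk a).symm.trans e))⟩
  · convert hA (k t) v.toMul ⟨(k t).2.1, v.toMul.2⟩
    rw [show ((t • v).toMul : G) = (E (k t) w v).toMul from hk t ▸ rfl, E0, B4 h1 (A1 (k t).2.1 v.toMul.2)]
    group

end CF.Tb.Qd
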