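import Cfsg.Agent.Mp.QB

/-! Finite Moufang quadrangles: the quadratic form. -/

set_option autoImplicit false

namespace CF.Tb.Qd

open Subgroup QuadraticMap
open scoped commutatorElement

variable {G : Type*} [Group G] {X : ℕ → Subgroup G} {K L : Type*} [Field K] [AddCommGroup L] [Module K L]
  {k : K → G} {x1 x3 : L → G} {g y y' κ l n κ' l' n' : G} {s t : K}

theorem H4.rl {t : ℕ} {u a b v : G} (M : H4 X) (h : R X t u a b v) (e : u = 1) : a = 1 ∧ b = 1 := by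
  subst e; exact M.ruq h (R.one_l h.h3)

theorem H4.rr {t : ℕ} {u a b v : G} (M : H4 X) (h : R X t u a b v) (e : v = 1) : a = 1 ∧ b = 1 := by
  subst e; exact M.ruq h (R.one_r h.h0)

namespace S1

variable (S : S1 X k x1 x3) (M : H4 X)
include S M

theorem mu_k (h : Mk X 0 κ (k t) l n) (v : L) : n⁻¹ * x3 v * n = x1 (t • v) :=
  let ⟨_, h1⟩ := S.r t v; (M.s1 h1 h).1.symm

theorem mu_k' (h : Mk X 0 κ (k t) l n) (v : L) : n * x3 v * n⁻¹ = x1 (-(t • v)) := by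
  have := h.inv
  rw [← S.ck.neg] at this
  simpa using S.mu_k M this v

theorem exk (ht : t ≠ 0) : ∃ κ l n, Mk X 0 κ (k t) l n := M.exM (S.ck.mem' t).1 (S.ck.ne ht)

theorem ex3 {v : L} (hv : v ≠ 0) : ∃ κ l n, Mk X 3 κ (x3 v) l n := M.exM (S.c3.mem' v) (S.c3.ne hv)

theorem lin (h3 : ∀ v ∈ X 3, g * v * g⁻¹ ∈ X 3) (h0 : ∀ u ∈ X 0, Commute u g) (h4 : ∀ u ∈ X 4, Commute u g) :
    ∃ δ : L →ₗ[K] L, ∀ v, g * x3 v * g⁻¹ = x3 (δ v) ∧ g * x1 v * g⁻¹ = x1 (δ v) := by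
  choose δ hδ using fun v => (S.c3.mem _).1 (h3 _ (S.c3.mem' v))
  have h1 : ∀ t ≠ (0 : K), ∀ v, g * x1 (t • v) * g⁻¹ = x1 (t • δ v) := fun t ht v => by
    obtain ⟨κ, l, n, h⟩ := S.exk M ht
    have := h.comm (h4 _ h.hk).symm (h0 _ h.hu).symm (h4 _ h.hl).symm
    rw [← S.mu_k M h, ← S.mu_k M h, hδ, ← mul_assoc, ← mul_assoc, this.inv_right.eq, mul_assoc _ n,
      ← this.inv_left.eq]
    group
  have h2 : ∀ v, g * x1 v * g⁻¹ = x1 (δ v) := fun v => by simpa using h1 1 one_ne_zero v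
  refine ⟨⟨⟨δ, fun v w => S.c3.inj (by rw [S.c3.add, hδ, hδ, hδ, S.c3.add]; group)⟩, fun t v => S.c1.inj ?_⟩,
    fun v => ⟨(hδ v).symm, h2 v⟩⟩
  by_cases ht : t = 0
  · simp [ht, ← h2, S.c1.zero]
  · exact (h2 _).symm.trans (h1 t ht v)

theorem exr {v : L} (hv : v ≠ 0) (hy : y ∈ Yq X 2) : ∃ t, R X 0 (k t) (x1 (t • v)) y (x3 v) := by
  obtain ⟨κ, l, n, h⟩ := S.ex3 M hv
  obtain ⟨t, e⟩ := (S.ck.mem _).1 (M.ycj' h hy)
  obtain ⟨b, h1⟩ := S.r t v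
  obtain rfl : b = y := by rw [(M.s2 h1 h).1, e]; group
  exact ⟨t, h1⟩

theorem tor (hy : y ∈ Yq X 2) (hy' : y' ∈ Yq X 2) (h : Mk X 2 κ y l n) (h' : Mk X 2 κ' y' l' n') :
    ∃ d : K, (∀ v, n * n'⁻¹ * x3 v * (n * n'⁻¹)⁻¹ = x3 (d • v) ∧ n * n'⁻¹ * x1 v * (n * n'⁻¹)⁻¹ = x1 (d • v)) ∧
      ∀ v ≠ 0, ∀ s t, R X 0 (k s) (x1 (s • v)) y (x3 v) → R X 0 (k t) (x1 (t • v)) y' (x3 v) → s = d * t := by
  obtain ⟨δ, hδ⟩ := S.lin M (g := n * n'⁻¹) (fun v hv => by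
    simpa [mul_assoc] using h.cj (s := 3) (h'.cj' (s := 5) hv))
    (fun u hu => (M.muy h hy hu).mul_right (M.muy h' hy' hu).inv_right)
    fun u hu => (M.muy h hy hu).mul_right (M.muy h' hy' hu).inv_right
  have h1 : ∀ v ≠ 0, ∀ s t, R X 0 (k s) (x1 (s • v)) y (x3 v) → R X 0 (k t) (x1 (t • v)) y' (x3 v) →
      t • δ v = s • v := fun v hv s t e e' => by
    obtain ⟨a, b, c, h2⟩ := S.ex3 M hv
    refine S.c1.inj ?_
    rw [← map_smul, ← (hδ _).2, (M.s2 (M.s2 e h2).2 (M.kmv h)).1, (M.s2 (M.s2 e' h2).2 (M.kmv h')).1]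
    group
  obtain ⟨d, rfl⟩ := LinearMap.exists_eq_smul_id_of_forall_notLinearIndependent (f := δ) fun v e => by
    have hv : v ≠ 0 := e.ne_zero 0
    obtain ⟨s, e1⟩ := S.exr M hv hy
    obtain ⟨t, e2⟩ := S.exr M hv hy'
    have := (LinearIndependent.pair_iff.1 e s (-t) (by rw [neg_smul, h1 v hv s t e1 e2, add_neg_cancel])).2
    exact M.mne h' (M.rl e2 (S.ck.eq_one.2 (neg_eq_zero.1 this))).2
  exact ⟨d, hδ, fun v hv s t e e' => smul_left_injective K hv (by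
    simpa [smul_smul, mul_comm] using (h1 v hv s t e e').symm)⟩

end S1

/-- coordinates with a quadratic form -/
structure S2 (X : ℕ → Subgroup G) (k : K → G) (x1 x3 : L → G) (Q : QuadraticForm K L) (e : L) (m : G)
    (p : X 0 → L →ₗ[K] L) : Prop extends S1 X k x1 x3 where
  hm : ∃ κ l, Mk X 3 κ (x3 e) l m
  qe : Q e = 1
  an : ∀ v, Q v = 0 → v = 0
  rk : ∀ t v, R X 0 (k t) (x1 (t • v)) (m * k (t * Q v) * m⁻¹) (x3 v)
  rp : ∀ (u : X 0) v, ∃ b, R X 0 u (x1 (p u v)) b (x3 v)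
  cm : ∀ c a, ⁅(x1 c)⁻¹, x3 a⁆ = m * k (polar Q c a) * m⁻¹
  sim : ∀ u, ∃ c, (∀ v, Q (p u v) = c * Q v) ∧ ∀ v, p u (p u⁻¹ v) = -(c • v)

theorem S1.exS2 (S : S1 X k x1 x3) (M : H4 X) : ∃ Q e m p, S2 X k x1 x3 Q e m p := by
  obtain ⟨_, h1, h2⟩ := M.ne 3
  obtain ⟨e, rfl⟩ := (S.c3.mem _).1 h1
  have he : e ≠ 0 := fun e' => h2 (S.c3.eq_one.2 e')
  obtain ⟨κ, l, m, hm⟩ := S.ex3 M he
  obtain ⟨x2, hx⟩ : ∃ x2 : K → G, ∀ t, x2 t = m * k t * m⁻¹ := ⟨_, fun _ => rfl⟩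
  have c2 : Cl x2 (Yq X 2) := funext hx ▸ S.ck.conj fun u => ⟨fun h => M.ycj hm h, fun h => by
    simpa [mul_assoc] using M.ycj' (s := 0) hm h⟩
  have r0 : ∀ t v, ∃ s, R X 0 (k t) (x1 (t • v)) (x2 s) (x3 v) := fun t v => by
    obtain ⟨b, h⟩ := S.r t v
    obtain ⟨s, rfl⟩ := (c2.mem _).1 (M.ry h (S.ck.mem' t))
    exact ⟨s, h⟩
  have re : ∀ t, R X 0 (k t) (x1 (t • e)) (x2 t) (x3 e) := fun t => by
    obtain ⟨b, h⟩ := S.r t e
    rwa [(M.s2 h hm).1, ← hx] at h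
  have r1 : ∀ {t s v}, R X 0 (k t) (x1 (t • v)) (x2 s) (x3 v) → (s = 0 ↔ t = 0 ∨ v = 0) := fun {t s v} h => by
    refine ⟨fun e => or_iff_not_imp_right.2 fun hv => ?_, fun e => c2.eq_one.1 ?_⟩
    · obtain ⟨_, _, _, h'⟩ := S.ex3 M hv
      simpa [e, c2.zero, S.ck.eq_one] using (M.s2 h h').1.symm
    · rcases e with rfl | rfl
      · exact (M.rl h S.ck.zero).2
      · exact (M.rr h S.c3.zero).2
  have ex2 : ∀ t ≠ 0, ∃ κ l n, Mk X 2 κ (x2 t) l n := fun t ht => M.exM (c2.mem' t).1 (c2.ne ht)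
  choose Q hQ using r0 1
  have an : ∀ v, Q v = 0 ↔ v = 0 := fun v => by simpa using r1 (hQ v)
  have rk : ∀ t v, R X 0 (k t) (x1 (t • v)) (x2 (t * Q v)) (x3 v) := fun t v => by
    obtain ⟨s, h⟩ := r0 t v
    suffices s = t * Q v from this ▸ h
    by_cases e : t = 0 ∨ v = 0
    · rw [(r1 h).2 e, eq_comm, mul_eq_zero, an]; exact e
    obtain ⟨_, _, _, e1⟩ := ex2 s (mt (r1 h).1 e)
    obtain ⟨_, _, _, e2⟩ := ex2 _ (mt (an v).1 fun e' => e (.inr e'))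
    obtain ⟨d, -, e3⟩ := S.tor M (c2.mem' _) (c2.mem' _) e1 e2
    rw [e3 _ he _ _ (re _) (re _), e3 v (fun e' => e (.inr e')) _ _ h (hQ v), mul_one]
  choose p q hp using fun (u : X 0) v => show ∃ c b, R X 0 u (x1 c) b (x3 v) by
    obtain ⟨a, b, h⟩ := M.exR (t := 0) u.2 (S.c3.mem' v)
    obtain ⟨c, rfl⟩ := (S.c1.mem _).1 h.h1
    exact ⟨c, b, h⟩
  have p1 : ∀ u v w, p u (v + w) = p u v + p u w := fun u v w => S.c1.inj (by
    rw [S.c1.add]; exact (M.ruq (hp u _) (S.c3.add v w ▸ M.mul_r (hp u v) (hp u w))).1)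
  have p2 : ∀ u (c : K) v, p u (c • v) = c • p u v := fun u c v => by
    by_cases hc : c = 0
    · simpa [hc] using p1 u 0 0
    obtain ⟨_, _, n, e1⟩ := ex2 c hc
    obtain ⟨_, _, n', e2⟩ := ex2 1 one_ne_zero
    obtain ⟨d, e3, e4⟩ := S.tor M (c2.mem' _) (c2.mem' _) e1 e2
    obtain rfl : c = d := by simpa using e4 _ he _ _ (re _) (re _)
    have e5 : n * n'⁻¹ * u * (n * n'⁻¹)⁻¹ = u := by
      rw [← ((M.muy e1 (c2.mem' _) u.2).mul_right (M.muy e2 (c2.mem' _) u.2).inv_right).eq, mul_inv_cancel_right]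
    have := (hp u v).conj (n * n'⁻¹) (e5.symm ▸ u.2) ((e3 _).2 ▸ S.c1.mem' _) (by
      simpa [mul_assoc] using e1.cj (s := 2) (e2.cj' (s := 6) (hp u v).h2)) ((e3 _).1 ▸ S.c3.mem' _)
    rw [e5, (e3 _).1, (e3 _).2] at this
    exact S.c1.inj (M.ruq (hp u _) this).1
  have p3 : ∀ t v, p ⟨k t, (S.ck.mem' t).1⟩ v = t • v := fun t v => S.c1.inj (M.ruq (hp _ v) (rk t v)).1
  obtain ⟨_, _, n0, h0⟩ := S.exk M one_ne_zero
  have sim : ∀ u, ∃ c, (∀ v, Q (p u v) = c * Q v) ∧ ∀ v, p u (p u⁻¹ v) = -(c • v) := fun u => by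
    by_cases hu : (u : G) = 1
    · have : ∀ v, p u v = 0 := fun v => S.c1.eq_one.1 (M.rl (hp u v) hu).1
      exact ⟨0, fun v => by rw [this, (an 0).2 rfl, zero_mul], fun v => by simp [this]⟩
    obtain ⟨_, _, n, h⟩ := M.exM u.2 hu
    have e0 : ∀ {r s : ℕ} {x : G}, x ∈ X r → (r + s) % 8 = 4 → n0 * n⁻¹ * x * (n0 * n⁻¹)⁻¹ ∈ X r := fun hx e => by
      simpa [mul_assoc] using h0.cj (h.cj' hx e) (by omega)
    obtain ⟨r, e1⟩ := (S.ck.mem (n0 * n⁻¹ * k 1 * (n0 * n⁻¹)⁻¹)).1 (by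
      simpa [mul_assoc] using M.ycj h0 (M.ycj' (s := 4) h (S.ck.mem' 1)))
    have hr : r ≠ 0 := by
      rintro rfl; exact S.ck.ne one_ne_zero (conj_eq_one_iff.1 (e1.symm.trans S.ck.zero))
    have e2 : ∀ v, n0 * n⁻¹ * x3 v * (n0 * n⁻¹)⁻¹ = x3 (p u v) := fun v => by
      rw [show n0 * n⁻¹ * x3 v * (n0 * n⁻¹)⁻¹ = n0 * (n⁻¹ * x3 v * n) * n0⁻¹ by group, ← (M.s1 (hp u v) h).1,
        ← one_smul K (p u v), ← S.mu_k M h0, one_smul]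
      group
    have e3 : ∀ v, x1 (r • p u v) = n0 * n⁻¹ * x1 v * (n0 * n⁻¹)⁻¹ ∧ r * Q (p u v) = Q v := fun v => by
      have e4 := (hQ v).conj _ (e0 (s := 4) (hQ v).h0 rfl) (e0 (s := 3) (hQ v).h1 rfl) (e0 (s := 2) (hQ v).h2 rfl)
        (e0 (s := 1) (hQ v).h3 rfl)
      rw [← e1, e2, one_smul, ← ((M.ymu h0 (c2.mem' _)).mul_right (M.ymu h (c2.mem' _)).inv_right).eq,
        mul_inv_cancel_right] at e4
      exact (M.ruq (rk r _) e4).imp_right fun e => c2.inj e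
    refine ⟨r⁻¹, fun v => by rw [← (e3 v).2, inv_mul_cancel_left₀ hr], fun v => ?_⟩
    have e4 := (e3 (p u⁻¹ v)).1
    rw [(M.s1 (hp u⁻¹ v) h.inv).1, show n0 * n⁻¹ * (n⁻¹⁻¹ * x3 v * n⁻¹) * (n0 * n⁻¹)⁻¹ = n0 * x3 v * n0⁻¹ by group,
      S.mu_k' M h0, one_smul] at e4
    rw [← smul_neg, ← S.c1.inj e4, inv_smul_smul₀ hr]
  have q1 : ∀ (t : K) v, Q (t • v) = (t * t) • Q v := fun t v => by
    obtain ⟨c, e1, e2⟩ := sim ⟨k t, (S.ck.mem' t).1⟩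
    have e3 := e2 e
    rw [show (⟨k t, (S.ck.mem' t).1⟩ : X 0)⁻¹ = ⟨k (-t), (S.ck.mem' _).1⟩ from Subtype.ext (S.ck.neg t).symm,
      p3, p3, smul_smul, ← neg_smul] at e3
    rw [← p3, e1, smul_eq_mul, ← neg_inj.1 ((mul_neg t t).symm.trans (smul_left_injective K he e3))]
  choose f hf using fun c a => (c2.mem _).1 (M.cmY (t := 0) (M.ab (S.ck.mem' 1) (S.ck.ne one_ne_zero))
    (inv_mem (S.c1.mem' c)) (S.c3.mem' a))
  have f1 : ∀ t v w, f (t • w) v = t * polar Q v w := fun t v w => by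
    have := (M.ruq (rk t (v + w)) (S.c3.add v w ▸ M.mul_r (rk t v) (rk t w))).2
    rw [← hf, ← c2.add, ← c2.add] at this
    rw [polar]; linear_combination -c2.inj this
  have f2 : ∀ v w, f v w = polar Q v w := fun v w => by simpa [polar_comm Q v] using f1 1 w v
  have f3 : ∀ c a b, f c (a + b) = f c a + f c b := fun c a b => c2.inj (by
    rw [c2.add, hf, hf, hf, S.c3.add, cm_mul_r]
    rw [← hf]; exact (M.c1 (c2.mem' _).1 (S.c3.mem' a)).symm)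
  refine ⟨ofPolar Q q1 (fun v v' w => by rw [polar_comm Q _ w, polar_comm Q _ w, polar_comm Q _ w, ← f2, f3, f2, f2])
    (fun t v w => by rw [← f2, f1, polar_comm, smul_eq_mul]), e, m, fun u => ⟨⟨p u, p1 u⟩, p2 u⟩, S, ⟨κ, l, hm⟩,
    c2.inj (M.ruq (hQ e) (re 1)).2, fun v => (an v).1, fun t v => hx _ ▸ rk t v, fun u v => ⟨_, hp u v⟩,
    fun c a => by rw [← hf, f2, hx]; rfl, sim⟩

end CF.Tb.Qd
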