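import Cfsg.Agent.Mp.QC

/-! Finite Moufang quadrangles: normal forms. -/

set_option autoImplicit false

namespace CF.Tb

/-- normal form of a quadrangle -/
def Nf {G : Type*} [Group G] (X : ℕ → Subgroup G) : Prop :=
  ∃ (F : Type) (_ : Field F) (_ : Fintype F) (P : PQ F (X 0)) (y z : F → G) (m : G), B2 X P y z m ∧
    Nat.card F ≤ Nat.card (X 0) ∧ (Nat.card (X 0) = Nat.card F → ∀ c, P.γ c = 1)

namespace Qd

open Subgroup QuadraticMap
open scoped commutatorElement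

variable {G : Type*} [Group G] {X : ℕ → Subgroup G} {K L : Type*} [Field K] [AddCommGroup L] [Module K L]
  {k : K → G} {x1 x3 : L → G} {Q : QuadraticForm K L} {e : L} {m : G} {p : X 0 → L →ₗ[K] L}

theorem Cl.co {x : K → G} {A : Subgroup G} (h : Cl x A) : Co x A := ⟨h.add, h.inj, h.mem⟩

/-- the data of a quadratic form -/
def ofQuad {T : Type*} [Group T] (Q : QuadraticForm K L) (an : ∀ v, Q v = 0 → v = 0) (qe : Q e = 1) (ψ : T ≃ L)
    (h : ∀ u v, ψ (u * v) = ψ u + ψ v) : PQ K T where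
  π u := Q (ψ u)
  sm u a := ψ.symm (a • ψ u)
  β u v := polar Q (ψ u) (ψ v)
  γ _ := 1
  σ := RingHom.id K
  ε := 1
  sm_mul u v a := ψ.injective (by simp [h])
  sm_sm u a b := by simp [smul_smul, mul_comm]
  sm_one u := by simp
  sm_zero u := ψ.injective (by simpa [eq_comm] using (h 1 1).symm)
  π_mul u v := by rw [h, QuadraticMap.map_add Q]
  β_l u v w := by rw [h, polar_add_left]
  β_r u v w := by rw [h, polar_add_right]
  β_sl u v a := by simp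
  β_sr u v a := by simp
  π_sm u a := by simp [QuadraticMap.map_smul]
  sm_add u a b := ψ.injective (by simp [h, add_smul])
  π_γ c := by
    have : ψ 1 = 0 := by simpa using h 1 1
    simp [this]
  ε_ne := one_ne_zero
  π_eq u e := ψ.injective ((an _ e).trans (by simpa [eq_comm] using (h 1 1).symm))
  one := ⟨ψ.symm e, by simpa using qe⟩

theorem H4.refl (M : H4 X) {t : ℕ} {c κ u l n a b : G} (hc : c ∈ X (t + 1)) (h : Mk X (t + 3) κ u l n)
    (h4 : R X t ⁅l, c⁆ a b u) : n * c * n⁻¹ = a * c ∧ b * ⁅c⁻¹, u⁆ = 1 := by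
  have h2 : n * c * n⁻¹ ∈ X (t + 1) := h.cj hc
  refine (M.uq3 h4.h0 (M.c2 (inv_mem h.hk) h2) (mul_mem h4.h1 hc) h2 (mul_mem h4.h2 (M.c2 (inv_mem hc) h4.h3))
    (one_mem _) ?_).2.imp_left Eq.symm
  rw [show ⁅l, c⁆ * (a * c) * (b * ⁅c⁻¹, u⁆) = ⁅l, c⁆ * a * (c * b) * ⁅c⁻¹, u⁆ by group, (M.c1 hc h4.h2).eq,
    show ⁅l, c⁆ * a * (b * c) = ⁅l, c⁆ * (a * b) * c by group, ← h4.cm, h.e]
  group

namespace S2

variable (S : S2 X k x1 x3 Q e m p) (M : H4 X)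
include S M

theorem c2 : Cl (fun t => m * k t * m⁻¹) (Yq X 2) :=
  let ⟨_, _, hm⟩ := S.hm
  S.ck.conj fun u => ⟨fun h => M.ycj hm h, fun h => by simpa [mul_assoc] using M.ycj' (s := 0) hm h⟩

theorem refl {κ l n : G} {v : L} (h : Mk X 3 κ (x3 v) l n) (c : L) :
    n * x1 c * n⁻¹ = x1 (c - (polar Q c v / Q v) • v) := by
  obtain ⟨t, ht⟩ := (S.ck.mem _).1 (M.ymv (M.cmY (t := 6) (fun x hx y hy => by
    obtain ⟨a, e1⟩ := (S.c3.mem _).1 (h.cj' hx)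
    obtain ⟨b, e2⟩ := (S.c3.mem _).1 (h.cj' hy)
    have : Commute (x3 a) (x3 b) := by rw [Commute, SemiconjBy, ← S.c3.add, ← S.c3.add, add_comm]
    rw [e1, e2] at this
    simpa [mul_assoc] using this.conj n) h.hl (M.mv (S.c1.mem' c))))
  obtain ⟨e1, e2⟩ := M.refl (t := 0) (S.c1.mem' c) h (ht ▸ S.rk t v)
  rw [S.cm, ← (S.c2 M).add, (S.c2 M).eq_one] at e2
  have hv : Q v ≠ 0 := fun e => M.mne h (S.c3.eq_one.2 (S.an v e))
  rw [e1, ← S.c1.add, show polar Q c v / Q v = -t by field_simp; linear_combination e2, neg_smul, sub_neg_eq_add,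
    add_comm]

theorem pk (u : X 0) (t : K) (v : L) : p (u * ⟨k t, (S.ck.mem' t).1⟩) v = p u v + t • v := by
  obtain ⟨b, h⟩ := S.rp u v
  obtain ⟨b', h'⟩ := S.rp (u * ⟨k t, (S.ck.mem' t).1⟩) v
  have := (M.ruq h' (M.mul_l h (S.rk t v))).1
  rw [(Yq.cm (inv_mem (S.ck.mem' t)) h.h2).commutator_eq, mul_one, ← S.c1.add] at this
  exact S.c1.inj this

theorem p_eq {u : X 0} {v : L} (h : p u v = 0) (hv : v ≠ 0) : u = 1 := by_contra fun e => by
  obtain ⟨_, _, n, h1⟩ := M.exM u.2 fun e' => e (Subtype.ext e')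
  obtain ⟨b, h2⟩ := S.rp u v
  have := (M.s1 h2 h1).1
  rw [h, S.c1.zero, eq_comm, mul_assoc, inv_mul_eq_one, right_eq_mul] at this
  exact S.c3.ne hv this

theorem p_one (v : L) : p 1 v = 0 := let ⟨_, h⟩ := S.rp 1 v; S.c1.eq_one.1 (M.rl h rfl).1

end S2

theorem S2.nfR {K : Type} [Field K] [Fintype K] [Module K L] [Finite G] {k : K → G} {Q : QuadraticForm K L}
    {p : X 0 → L →ₗ[K] L} (S : S2 X k x1 x3 Q e m p) (M : H4 X) (h : ∀ u ∈ X 0, u ∈ Yq X 0) : Nf (rv4 X) := by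
  obtain ⟨_, _, hm⟩ := S.hm
  obtain ⟨_, _, n, h0⟩ := S.exk M one_ne_zero
  let φ : L ≃ rv4 X 0 := Equiv.ofBijective (fun a => ⟨x3 a, S.c3.mem' a⟩) ⟨fun a b e =>
    S.c3.inj (congrArg Subtype.val e), fun g => let ⟨a, e⟩ := (S.c3.mem _).1 g.2; ⟨a, Subtype.ext e⟩⟩
  have hφ : ∀ a, (φ a : G) = x3 a := fun _ => rfl
  let P := ofQuad Q S.an S.qe φ.symm fun u v => φ.injective (Subtype.ext (by
    rw [hφ _, hφ _, S.c3.add, ← hφ, ← hφ, ← hφ]; simp))
  have c2 := S.c2 M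
  have hc := (P.cases.resolve_right fun e => e.1 rfl).2
  refine ⟨K, inferInstance, inferInstance, P, fun t => m * k t * m⁻¹, k, n, ⟨⟨c2.add, c2.inj, fun g =>
    Iff.trans ⟨fun hg => ?_, fun hg => M.mv (j := 3 + 7 * 1) hg.1⟩ (c2.mem g)⟩, ⟨S.ck.add, S.ck.inj, fun g =>
    Iff.trans ⟨fun hg => h _ (M.mv (i := 3 + 7 * 3) hg), fun hg => M.mv (j := 3 + 7 * 3) hg.1⟩ (S.ck.mem g)⟩,
    h0.f _ _ rfl, fun u a => ?_, fun v w => ?_, fun c a => ?_⟩, ?_, fun _ _ => rfl⟩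
  · simpa [mul_assoc] using M.ycj (s := 2) hm (h _ (hm.cj' (r := 3 + 7 * 1) hg))
  · obtain ⟨u, rfl⟩ := φ.surjective u
    have := (S.rk (-a) (-u)).cm
    rw [S.ck.neg, inv_inv, S.c3.neg, QuadraticMap.map_neg, neg_mul, c2.neg, neg_smul_neg] at this
    rw [← commutatorElement_inv, hφ, this]
    simp [P, ofQuad, hφ, S.mu_k' M h0, S.c1.neg]
  · obtain ⟨v, rfl⟩ := φ.surjective v
    obtain ⟨w, rfl⟩ := φ.surjective w
    rw [← commutatorElement_inv, hφ, hφ, S.mu_k' M h0, one_smul, S.c1.neg, ← S.c3.neg, S.cm, ← c2.neg]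
    simp [P, ofQuad]
  · simpa [P, ofQuad] using (Yq.cm (S.ck.mem' a) (inv_mem (c2.mem' c).1)).symm.commutator_eq
  · rcases hc with e | e
    · exact e.ge
    · exact e.1 ▸ Nat.le_self_pow two_ne_zero _

end Qd

end CF.Tb
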