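import Cfsg.Agent.Mp.QD

/-! Finite Moufang quadrangles: the unitary case. -/

set_option autoImplicit false

namespace CF.Tb.Qd

open Subgroup QuadraticMap
open scoped commutatorElement

variable {G : Type*} [Group G] {X : ℕ → Subgroup G} {K : Type} {L : Type*} [Field K] [AddCommGroup L] [Module K L]
  {k : K → G} {x1 x3 : L → G} {Q : QuadraticForm K L} {e : L} {m : G} {p : X 0 → L →ₗ[K] L}

theorem S2.ext [Fintype K] [Finite L] (S : S2 X k x1 x3 Q e m p) (M : H4 X) {u0 : X 0} (h0 : (u0 : G) ∉ Yq X 0) :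
    ∃ (F : Type) (_ : Field F) (_ : Fintype F) (σ : F →+* F) (ι : K →+* F) (θ : F ≃+ L) (π : X 0 → F),
      θ 1 = e ∧ (∀ u a, p u (θ a) = θ (a * π u)) ∧ (∀ t a, t • θ a = θ (ι t * a)) ∧
      (∀ a, ι (Q (θ a)) = a * σ a) ∧ (∀ a, σ (σ a) = a) ∧ σ (π u0) ≠ π u0 := by
  have h1 : ∀ (t : K) v, p u0 v = t • v → v = 0 := fun t v h => by_contra fun hv => h0 (by
    have := S.p_eq M (u := u0 * ⟨k (-t), (S.ck.mem' _).1⟩) (by rw [S.pk M, h, neg_smul, add_neg_cancel]) hv
    rw [show (u0 : G) = (k (-t))⁻¹ from eq_inv_of_mul_eq_one_left (congrArg Subtype.val this)]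
    exact inv_mem (S.ck.mem' _))
  have he : e ≠ 0 := by rintro rfl; simpa using S.qe
  obtain ⟨h2, h3, -⟩ := (aniso_dim S.an S.qe).resolve_left fun h => let ⟨a, h'⟩ := h (p u0 e); he (h1 a e h'.symm)
  have h4 : ∀ u, ∃ τ, ∀ v, polar Q (p u v) v = τ * Q v := fun u => by
    obtain ⟨c, e1, -⟩ := S.sim u
    obtain ⟨c', e2, -⟩ := S.sim (u * ⟨k 1, (S.ck.mem' _).1⟩)
    exact ⟨c' - c - 1, fun v => by
      have := e2 v
      rw [S.pk M, one_smul, QuadraticMap.map_add Q, e1] at this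
      linear_combination this⟩
  have h5 : LinearIndependent K ![e, p u0 e] := LinearIndependent.pair_iff' he |>.2 fun a h => he (h1 a e h.symm)
  have h6 : ∀ v, ∃ a b : K, a • e + b • p u0 e = v := fun v => by
    have := h5.span_eq_top_of_card_eq_finrank (by simp [h2])
    rw [Matrix.range_cons_cons_empty] at this
    exact Submodule.mem_span_pair.1 (this ▸ Submodule.mem_top)
  have h7 : ∀ (s : L →ₗ[K] L) τ, (∀ v, polar Q (s v) v = τ * Q v) →
      ∀ v w, polar Q (s v) w + polar Q (s w) v = τ * polar Q v w := fun s τ h v w => by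
    have := h (v + w)
    rw [map_add, polar_add_left, polar_add_right, polar_add_right, h, h, QuadraticMap.map_add Q] at this
    linear_combination this
  have h8 : ∀ (s : L →ₗ[K] L) τ, (∀ v, polar Q (s v) v = τ * Q v) → s e = 0 → ∀ v, s v = 0 := fun s τ h e0 => by
    obtain rfl : τ = 0 := by simpa [e0, S.qe] using (h e).symm
    have e1 : s (p u0 e) = 0 := h3.1 _ fun w => by
      obtain ⟨a, b, rfl⟩ := h6 w
      have := h7 s 0 h (p u0 e) e
      simp_all
    intro v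
    obtain ⟨a, b, rfl⟩ := h6 v
    simp [e0, e1]
  obtain ⟨τ, hτ⟩ := h4 u0
  obtain ⟨c, hc, -⟩ := S.sim u0
  have h9 : ∀ v, p u0 (p u0 v) = τ • p u0 v - c • v := fun v => sub_eq_zero.1 (h3.1 _ fun w => by
    have e1 := h7 _ _ hτ (p u0 v) w
    have e2 := hc (v + w)
    rw [map_add, QuadraticMap.map_add Q, QuadraticMap.map_add Q, hc, hc, polar_comm] at e2
    simp only [polarBilin_apply_apply, polar_sub_left, polar_smul_left, smul_eq_mul]
    linear_combination e1 - e2)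
  haveI : Fact (∀ r, r ^ 2 ≠ -c + τ * r) := ⟨fun r h => he (h1 (τ - r) e (sub_eq_zero.1 (h1 r _ (by
    rw [map_sub, map_smul, h9, show c = τ * r - r ^ 2 by linear_combination h]; module))))⟩
  haveI : Finite (QuadraticAlgebra K (-c) τ) := .of_equiv _ (QuadraticAlgebra.equivProd _ _).symm
  let θ : QuadraticAlgebra K (-c) τ ≃+ L := AddEquiv.ofBijective (AddMonoidHom.mk'
    (fun x => x.re • e + x.im • p u0 e) fun x y => by simp [add_smul]; abel)
    ⟨(injective_iff_map_eq_zero _).2 fun x h => QuadraticAlgebra.ext (LinearIndependent.pair_iff.1 h5 _ _ h).1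
      (LinearIndependent.pair_iff.1 h5 _ _ h).2, fun v => let ⟨a, b, h⟩ := h6 v; ⟨⟨a, b⟩, h⟩⟩
  have hθ : ∀ x, θ x = x.re • e + x.im • p u0 e := fun _ => rfl
  have h10 : ∀ u a, p u (θ a) = θ (a * θ.symm (p u e)) := fun u a => by
    obtain ⟨x, hx⟩ := θ.surjective (p u e)
    obtain ⟨τ', e1⟩ := h4 u
    have := h8 (p u - x.re • 1 - x.im • p u0) (τ' - x.re * 2 - x.im * τ) (fun v => by
      simp [polar_sub_left, e1, hτ, polar_self]; ring) (by simp [← hx, hθ]) (θ a)
    rw [LinearMap.sub_apply, LinearMap.sub_apply, sub_sub, sub_eq_zero, LinearMap.smul_apply, LinearMap.smul_apply,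
      Module.End.one_apply] at this
    rw [this, ← hx, θ.symm_apply_apply]
    simp only [hθ, map_add, map_smul, h9, QuadraticAlgebra.re_mul, QuadraticAlgebra.im_mul]
    module
  refine ⟨QuadraticAlgebra K (-c) τ, inferInstance, Fintype.ofFinite _, starRingEnd _, algebraMap _ _, θ,
    fun u => θ.symm (p u e), by simp [hθ, QuadraticAlgebra.re_one, QuadraticAlgebra.im_one], h10, fun t a => by simp [hθ, smul_smul], fun a => ?_, star_star, fun h => ?_⟩
  · rw [starRingEnd_apply, ← QuadraticAlgebra.algebraMap_norm_eq_mul_star, QuadraticAlgebra.norm_def, hθ,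
      QuadraticMap.map_add Q, polar_smul_left, polar_smul_right, QuadraticMap.map_smul, QuadraticMap.map_smul, hc,
      polar_comm, hτ, S.qe]
    congr 1; simp only [smul_eq_mul]; ring
  · simp only at h
    rw [show θ.symm (p u0 e) = ⟨0, 1⟩ from θ.symm_apply_eq.2 (by simp [hθ])] at h
    have e1 : τ = 0 := by simpa [starRingEnd_apply] using congrArg (·.re) h
    have e2 : (-1 : K) = 1 := by simpa [starRingEnd_apply] using congrArg (·.im) h
    refine he (h3.1 e fun w => ?_)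
    obtain ⟨a, b, rfl⟩ := h6 w
    simp [polar_comm Q e (p u0 e), hτ, e1, polar_self, S.qe, show (2 : K) = 0 by linear_combination -e2]

theorem S2.nfW [Fintype K] [Finite L] [Finite G] (S : S2 X k x1 x3 Q e m p) (M : H4 X) {u0 : X 0}
    (h0 : (u0 : G) ∉ Yq X 0) : Nf X := by
  obtain ⟨F, _, _, σ, ι, θ, π, rfl, h2, h3, h4, h5, h6⟩ := S.ext M h0
  obtain ⟨_, _, hm⟩ := S.hm
  obtain ⟨y, hy⟩ : ∃ y : F → G, ∀ a, y a = x1 (θ a) := ⟨_, fun _ => rfl⟩
  obtain ⟨z, hz⟩ : ∃ z : F → G, ∀ a, z a = x3 (θ a) := ⟨_, fun _ => rfl⟩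
  have hC : ∀ {x : L → G} {A}, Cl x A → Cl (fun a => x (θ a)) A := fun h =>
    ⟨fun a b => by rw [map_add, h.add], h.inj.comp θ.injective, fun g => (h.mem g).trans θ.surjective.exists⟩
  have cy : Cl y (X 1) := funext hy ▸ hC S.c1
  have cz : Cl z (X 3) := funext hz ▸ hC S.c3
  have h7 : ∀ a b, ι (polar Q (θ a) (θ b)) = a * σ b + σ a * b := fun a b => by
    rw [polar, ← map_add, map_sub, map_sub, h4, h4, h4, map_add]; ring
  obtain ⟨x, hx⟩ : ∃ x : X 0 → G, ∀ u, x u = m * u * m⁻¹ := ⟨_, fun _ => rfl⟩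
  have x1' : ∀ u, x u ∈ X 2 := fun u => hx u ▸ hm.cj u.2
  have x2 : ∀ v ∈ X 2, ∃ u, x u = v := fun v hv => ⟨⟨m⁻¹ * v * m, hm.cj' hv⟩, by rw [hx]; group⟩
  have x3' : ∀ u v, x (u * v) = x u * x v := fun u v => by simp [hx]
  have x4 : ∀ u v, x u = x v → u = v := fun u v e => Subtype.ext (by simpa [hx] using e)
  choose q hq using fun (u : X 0) a => show ∃ w, R X 0 u (y (a * π u)) (x w) (z a) by
    obtain ⟨b, h⟩ := S.rp u (θ a)
    obtain ⟨w, rfl⟩ := x2 _ h.h2
    exact ⟨w, by rwa [hy, hz, ← h2]⟩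
  choose β hβ using fun v w : X 0 => (cy.mem _).1 (M.c2 (inv_mem w.2) (x1' v))
  obtain ⟨kk, hk⟩ : ∃ kk : K → X 0, ∀ t, (kk t : G) = k t := ⟨fun t => ⟨k t, (S.ck.mem' t).1⟩, fun _ => rfl⟩
  have k1 : ∀ t a, π (kk t) = ι t ∧ q (kk t) a = kk (t * Q (θ a)) := fun t a => by
    have e1 := M.ruq (hq (kk t) 1) (by rw [hk, hz]; exact S.rk t _)
    have e2 := M.ruq (hq (kk t) a) (by rw [hk, hz]; exact S.rk t _)
    rw [h3, ← hy] at e1
    exact ⟨by simpa using cy.inj e1.1, x4 _ _ (by rw [e2.2, hx, hk])⟩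
  have r13 : ∀ c a, ⁅(y c)⁻¹, z a⁆ = x (kk (polar Q (θ (c * σ a)) (θ 1))) := fun c a => by
    rw [hy, hz, S.cm, hx, hk]
    congr 3
    exact ι.injective (by rw [h7, h7, map_mul, h5, map_one]; ring)
  have q1 : ∀ u, q u 1 = u := fun u => x4 _ _ (by rw [(M.s2 (hq u 1) (hz 1 ▸ hm)).1, hx])
  have mul : ∀ u v a, a * π (u * v) = a * π u + β (q u a) v + a * π v ∧ q (u * v) a = q u a * q v a := fun u v a => by
    have := M.ruq (hq (u * v) a) (M.mul_l (hq u a) (hq v a))
    rw [← hβ, ← cy.add, ← cy.add, ← x3'] at this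
    exact ⟨cy.inj this.1, x4 _ _ this.2⟩
  have p1 : ∀ u v, π (u * v) = π u + π v + β u v := fun u v => by
    have := (mul u v 1).1
    rw [q1] at this; linear_combination this
  have bl : ∀ u v w, β (u * v) w = β u w + β v w := fun u v w => cy.inj (by
    rw [cy.add, hβ, hβ, hβ, x3', cm_mul_r]
    rw [← hβ]; exact (M.c1 (cy.mem' _) (x1' _)).symm)
  have br : ∀ u v w, β u (v * w) = β u v + β u w := fun u v w => cy.inj (by
    rw [cy.add, hβ, hβ, hβ, coe_mul, mul_inv_rev, cm_mul_l]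
    rw [← hβ]; exact (M.c1 w.2 (cy.mem' _)).inv_left)
  have bs : ∀ u v a, β (q u a) v = a * β u v := fun u v a => by
    have := (mul u v a).1
    rw [p1] at this; linear_combination -this
  have h8 : ∀ u, p u (θ 1) = θ (π u) := fun u => by rw [h2, one_mul]
  have pe : ∀ u, π u = 0 → u = 1 := fun u e => S.p_eq M (v := θ 1) (by rw [h8, e, map_zero]) (by simp)
  have p0 : π 1 = 0 := θ.injective (by rw [← h8, S.p_one M, map_zero])
  have p2 : ∀ u, π u⁻¹ = -σ (π u) := fun u => by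
    by_cases e : π u = 0
    · rw [pe u e, inv_one, p0]; simp
    obtain ⟨c, e1, e2⟩ := S.sim u
    have e3 := congrArg ι (e1 (θ 1))
    have e4 := e2 (θ 1)
    rw [h8, h4, S.qe, mul_one] at e3
    rw [h8, h2, h3, ← map_neg, ← e3] at e4
    exact mul_right_cancel₀ e (by linear_combination θ.injective e4)
  have p3 : ∀ u, β u u = π u - σ (π u) := fun u => by
    have e1 := p1 u u⁻¹
    have e2 := br u u u⁻¹
    have e3 := br u 1 1
    rw [mul_inv_cancel] at e1 e2
    rw [p2, p0] at e1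
    rw [mul_one] at e3
    linear_combination e1 - e2 - e3
  have p4 : ∀ u v, β v u = -σ (β u v) := fun u v => by
    have := p3 (u * v)
    simp only [bl, br, p1, map_add] at this
    linear_combination this - p3 u - p3 v
  have rf : ∀ {κ l n} a, Mk X 3 κ (z a) l n → ∀ c, n * y c * n⁻¹ = y (-(σ c * a / σ a)) := fun a h c => by
    have ha : a ≠ 0 := fun e => M.mne h (cz.eq_one.2 e)
    have := (map_ne_zero σ).2 ha
    rw [hy, S.refl M (hz a ▸ h), h3, ← map_sub, map_div₀, h4, h7, hy]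
    congr 2; field_simp; ring
  have q0 : ∀ u, q u 0 = 1 := fun u => x4 _ _ (by rw [(M.rr (hq u 0) cz.zero).2, hx]; simp)
  have ps : ∀ u a, π (q u a) = a * σ a * π u := fun u a => by
    by_cases ha : a = 0
    · rw [ha, q0, p0]; simp
    have ha' := (map_ne_zero σ).2 ha
    obtain ⟨_, _, n, h⟩ := M.exM (cz.mem' a) (cz.ne ha)
    have e0 : ∀ {r s : ℕ} {x : G}, x ∈ X r → (r + s) % 8 = 2 → m⁻¹ * n * x * (m⁻¹ * n)⁻¹ ∈ X r := fun hx e => by
      simpa [mul_assoc] using hm.cj' (h.cj hx e) (by omega)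
    obtain ⟨ρ, e1⟩ := (cz.mem _).1 (e0 (s := 7) (cz.mem' 1) rfl)
    have e2 : ∀ u, ρ * π (q u a) = π u * σ a / a := fun u => by
      have e3 := (hq u 1).conj _ (e0 (s := 2) u.2 rfl) (e0 (s := 1) (cy.mem' _) rfl) (e0 (s := 0) (x1' _) rfl)
        (e0 (s := 7) (cz.mem' _) rfl)
      rw [← e1, show m⁻¹ * n * u * (m⁻¹ * n)⁻¹ = q u a by
        rw [show m⁻¹ * n * u * (m⁻¹ * n)⁻¹ = m⁻¹ * (n * u * n⁻¹) * m by group, ← (M.s2 (hq u a) h).1, hx]
        group] at e3
      refine cy.inj ((M.ruq (hq _ ρ) e3).1.trans ?_)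
      rw [show ∀ g, m⁻¹ * n * g * (m⁻¹ * n)⁻¹ = m⁻¹ * (n * g * n⁻¹) * m from fun g => by group, rf a h,
        show -(σ (1 * π u) * a / σ a) = -(σ (π u * σ a / a) * 1 / σ 1) by simp [h5], ← rf 1 (hz 1 ▸ hm)]
      group
    have e3 := e2 (kk 1)
    rw [(k1 1 a).2, (k1 _ a).1, (k1 1 a).1, one_mul, h4, map_one] at e3
    have e4 := e2 u
    field_simp at e3 e4
    linear_combination a * e4 - π (q u a) * e3
  have bs' : ∀ u v a, β u (q v a) = σ a * β u v := fun u v a => by rw [p4, bs, p4 v u, map_mul]; ring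
  let P : PQ F (X 0) := ⟨π, q, β, fun c => kk (polar Q (θ c) (θ 1)), σ, -1, fun u v a => (mul u v a).2,
    fun u a b => ?_, q1, q0, p1, bl, br, bs, bs', ps, fun u a b => x4 _ _ ?_,
    fun c => by rw [(k1 _ 0).1, h7, h5]; simp, by simp, pe, ⟨kk 1, by simpa using (k1 1 0).1⟩⟩
  · have hc := P.herm_card (u := u0) (fun e => h6 (by simpa using RingHom.congr_fun e (π u0)))
      (by rw [show P.β u0 u0 = _ from p3 u0]; exact sub_ne_zero.2 h6.symm)
    have h9 := Finite.one_lt_card (α := F)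
    refine ⟨F, inferInstance, inferInstance, P, y, z, m, ⟨cy.co, cz.co, hm.f 0 2 rfl, fun u a => hx _ ▸ (hq u a).cm,
      fun v w => by rw [← hx, ← hβ], fun c a => hx _ ▸ r13 c a⟩, ?_, fun e => ?_⟩
    · exact (Nat.pow_le_pow_iff_left two_ne_zero).1 (hc ▸ Nat.pow_le_pow_right (by omega) (by omega))
    · exact absurd (Nat.pow_right_injective h9 (e ▸ hc :)) (by omega)
  · have e1 := p1 (q (q u a) b * (q u (a * b))⁻¹) (q u (a * b))
    have e2 := bl (q (q u a) b * (q u (a * b))⁻¹) (q u (a * b)) (q u (a * b))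
    rw [inv_mul_cancel_right] at e1 e2
    rw [bs, bs, bs] at e2
    rw [ps, ps, ps, map_mul] at e1
    exact mul_inv_eq_one.1 (pe _ (by linear_combination -e1 + e2))
  · have := (M.ruq (hq u (a + b)) (cz.add a b ▸ M.mul_r (hq u a) (hq u b))).2
    rwa [r13, ← x3', ← x3'] at this

end CF.Tb.Qd
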