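import Cfsg.Agent.Mp.QE

/-! Classification of finite Moufang quadrangles. -/

set_option autoImplicit false

namespace CF.Tb

open CF.BN TB Qd

section

variable {G : Type*} [Group G] {X : ℕ → Subgroup G}

theorem MP.rev4 (M : MP 4 X) : MP 4 (rv4 X) := H4.rev M

theorem MP.rv4_rv4 (M : MP 4 X) : rv4 (rv4 X) = X := H4.rev_rev M

theorem MP.nf_of_comm [Finite G] (M : MP 4 X) (h : ∀ u ∈ X 0, ∀ v ∈ X 2, Commute u v) : Nf (rv4 X) := by
  have h1 : ∀ u ∈ X 0, u ∈ Yq X 0 := fun u hu => H4.ymem M hu (h u hu)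
  obtain ⟨y, h2, h3⟩ := M.ne 0
  obtain ⟨K, _, _, L, _, _, _, k, x1, x3, S⟩ := H4.exS1 M (h1 y h2) h3
  obtain ⟨Q, e, m, p, S⟩ := S.exS2 M
  exact S.nfR M h1

theorem MP.nf4 [Finite G] (M : MP 4 X) : Nf X ∨ Nf (rv4 X) := by
  have key : ∀ {X : ℕ → Subgroup G} (M : MP 4 X) {y}, y ∈ Yq X 0 → y ≠ 1 → Nf X ∨ Nf (rv4 X) := fun M y h2 h3 => by
    obtain ⟨K, _, _, L, _, _, _, k, x1, x3, S⟩ := H4.exS1 M h2 h3
    obtain ⟨Q, e, m, p, S⟩ := S.exS2 M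
    exact or_iff_not_imp_left.2 fun h => S.nfR M fun u hu => by_contra fun h0 => h (S.nfW M (u0 := ⟨u, hu⟩) h0)
  rcases H4.exY M with ⟨y, h2, h3⟩ | ⟨y, h2, h3⟩
  · exact key M h2 h3
  · exact (M.rv4_rv4 ▸ key M.rev4 (H4.rev_Y M h2) h3).symm

variable {F F' : Type*} [Field F] [Field F']

/-- transport of pseudo-quadratic data along a field isomorphism -/
def PQ.comp {T : Type*} [Group T] (P : PQ F T) (e : F' ≃+* F) : PQ F' T where
  π u := e.symm (P.π u)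
  sm u a := P.sm u (e a)
  β u v := e.symm (P.β u v)
  γ c := P.γ (e c)
  σ := (e.symm : F →+* F').comp (P.σ.comp e)
  ε := e.symm P.ε
  sm_mul u v a := P.sm_mul ..
  sm_sm u a b := by rw [P.sm_sm, map_mul]
  sm_one u := by rw [map_one, P.sm_one]
  sm_zero u := by rw [map_zero, P.sm_zero]
  π_mul u v := by rw [P.π_mul, map_add, map_add]
  β_l u v w := by rw [P.β_l, map_add]
  β_r u v w := by rw [P.β_r, map_add]
  β_sl u v a := by simp [P.β_sl]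
  β_sr u v a := by simp [P.β_sr]
  π_sm u a := by simp [P.π_sm]
  sm_add u a b := by simp [P.sm_add]
  π_γ c := by simp [P.π_γ]
  ε_ne := by simpa using P.ε_ne
  π_eq u h := P.π_eq u (by simpa using h)
  one := let ⟨u, h⟩ := P.one; ⟨u, by simp [h]⟩

theorem B2.comp {P : PQ F (X 0)} {y z : F → G} {m : G} (B : B2 X P y z m) (e : F' ≃+* F) :
    B2 X (P.comp e) (fun a => y (e a)) (fun a => z (e a)) m :=
  ⟨by simpa using B.cy.comp e one_ne_zero, by simpa using B.cz.comp e one_ne_zero, B.hm,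
    fun u a => by simpa [PQ.comp] using B.r03 u (e a), fun v w => by simpa [PQ.comp] using B.r02 v w,
    fun c a => by simpa [PQ.comp] using B.r13 (e c) (e a)⟩

theorem Nf.cards [Finite G] (h : Nf X) : ∃ q, IsPrimePow q ∧ (Nat.card (X 0) = q ∧ Nat.card (X 3) = q ∨
    Nat.card (X 0) = q ^ 2 ∧ Nat.card (X 3) = q ∨ Nat.card (X 0) = q ^ 3 ∧ Nat.card (X 3) = q ^ 2) := by
  obtain ⟨F, _, _, P, y, z, m, B, h1, -⟩ := h
  have h2 : IsPrimePow (Nat.card F) := Nat.card_eq_fintype_card (α := F) ▸ FiniteField.isPrimePow_card F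
  have h3 := Finite.one_lt_card (α := F)
  rw [B.cz.card]
  rcases P.cases with ⟨-, e | e⟩ | ⟨-, e | e⟩
  · exact ⟨_, h2, .inl ⟨e, rfl⟩⟩
  · exact ⟨_, h2, .inr (.inl ⟨e.1, rfl⟩)⟩
  · nlinarith [e.2]
  · obtain ⟨q, hq⟩ : Nat.card F ∣ Nat.card (X 0) :=
      (Nat.pow_dvd_pow_iff two_ne_zero).1 (e.2 ▸ pow_dvd_pow _ (by omega))
    have h4 : Nat.card F = q ^ 2 := Nat.eq_of_mul_eq_mul_left (pow_pos (zero_lt_one.trans h3) 2) (by
      rw [← mul_pow, ← hq, e.2, pow_succ _ 2])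
    exact ⟨q, (isPrimePow_pow_iff two_ne_zero).1 (h4 ▸ h2), .inr (.inr ⟨by rw [hq, h4, pow_succ _ 2], h4⟩)⟩

end

variable {I W : Type*} [Group W] [Finite W] {C : InvGen I W} {i k : I}
  {G X G' X' : Type*} [Group G] [MulAction G X] [Group G'] [MulAction G' X']
  {T : TB C G X} {T' : TB C G' X'}

theorem TB.Mo.Xs_rv4 (M : T.Mo) (h : mm C i k = 4) : rv4 (T.Xs i k) = T.Xs k i :=
  funext fun r => (M.Xs_swap (ne_of_mm h) (by rw [h]; omega)).symm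

theorem TB.Mo.nf4 [Finite G] (M : T.Mo) (h : mm C i k = 4) : Nf (T.Xs i k) ∨ Nf (T.Xs k i) :=
  M.Xs_rv4 h ▸ (h ▸ M.mp (ne_of_mm h) : MP 4 _).nf4

theorem TB.Mo.nf_of_cm [Finite G] (M : T.Mo) (h : mm C i k = 4) (hc : T.Cm i k) : Nf (T.Xs i k) := by
  have h' : mm C k i = 4 := (mm_symm _ _).trans h
  rw [← M.Xs_rv4 h']
  refine (h' ▸ M.mp (ne_of_mm h') : MP 4 _).nf_of_comm fun u hu v hv => (hc v ?_ u ?_).symm
  · rwa [← M.Xs_rev (ne_of_mm h) (r := 2) h.symm]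
  · rwa [← M.Xs_rev (ne_of_mm h) (r := 0) h.symm]

theorem Nf.cardU [Finite G] (M : T.Mo) (h : mm C i k = 4) (N : Nf (T.Xs i k)) : ∃ q, IsPrimePow q ∧
    (Nat.card (T.U i) = q ∧ Nat.card (T.U k) = q ∨ Nat.card (T.U i) = q ^ 2 ∧ Nat.card (T.U k) = q ∨
      Nat.card (T.U i) = q ^ 3 ∧ Nat.card (T.U k) = q ^ 2) := by
  have := N.cards
  rwa [Xs_zero, M.Xs_last (ne_of_mm h) (t := 3) h.symm] at this

theorem cp_four' [Finite G] [Finite G'] (M : T.Mo) (M' : T'.Mo) (h : mm C i k = 4) (N : Nf (T.Xs i k))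
    (N' : Nf (T'.Xs i k)) (hi : Nat.card (T.U i) = Nat.card (T'.U i)) (hk : Nat.card (T.U k) = Nat.card (T'.U k)) :
    ∃ D D', Cp T T' i k D D' := by
  obtain ⟨F, _, _, P, y, z, m, B, -, h1⟩ := N
  obtain ⟨F', _, _, P', y', z', m', B', -, h1'⟩ := N'
  rw [← M.Xs_last (ne_of_mm h) (t := 3) h.symm, ← M'.Xs_last (ne_of_mm h) (t := 3) h.symm, B.cz.card,
    B'.cz.card] at hk
  rw [← Xs_zero (k := k), ← Xs_zero (T := T') (k := k)] at hi
  let e : F ≃+* F' := FiniteField.ringEquivOfCardEq (by simpa only [Nat.card_eq_fintype_card] using hk)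
  exact B.cp M M' h (B'.comp e) (P.iso _ hi fun hc _ => iff_of_true (h1 hc) fun c =>
    h1' (hi.symm.trans (hc.trans hk)) _)

end CF.Tb
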