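import Cfsg.Agent.Mp.QF
import Cfsg.Agent.Hx.Mod2
import Cfsg.Agent.Classical.LowDim4

/-! Simple groups acting on finite Moufang triangles and quadrangles. -/

set_option autoImplicit false

namespace CF.Hx

open CF.Tb CF.BN CF.Chev Cfsg Cfsg.Lie

theorem s_eq_wp {B ι : Type} [Fintype B] [DecidableEq B] [Fintype ι] [DecidableEq ι] {R : RootSys B ι} {S : Sym R}
    {i : B} {l : List B} (ho : ∀ j, j ∈ S.orb i ↔ j ∈ l) (h : ∀ j ∈ l, l.foldr R.cref 1 j < 0) : S.s i = R.wp l := by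
  rw [Sym.s, ← lg_inv, inv_eq_iff_eq_inv]
  refine (eq_lg (inv_mem (R.wp_mem_WJ fun j hj => (ho j).2 hj)) fun j hj h' => ?_).symm
  have := h j ((ho j).1 hj)
  rw [← RootSys.cact_wp] at this
  exact this.not_ge (RootSys.cw_nonneg zero_le_one h')

variable (K : Type) [Field K] [Fintype K] {q : ℕ}

theorem mmA2 : Mm (Matrix.ProjectiveSpecialLinearGroup (Fin 3) K) 3 (Nat.card K) (Nat.card K) :=
  mm_triv (StRep.faithful_quot (faithful_slRep 2 K (by omega)) (slRep_Gp _ K)) (StRep.quot_Gp (slRep_Gp _ K))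
    (StRep.center_quot (faithful_slRep 2 K (by omega)) (slRep_Gp _ K)) (i := 0) (j := 1) (by decide) (m := 0)
    ((congrArg orderOf (mul_one _)).symm.trans (RootSys.orderOf_wp (cm := [[2, -1], [-1, 2]]) (l := [0, 1])
      (by simp only [cbA_car]; decide) (by decide +kernel)))

theorem mmC2 : Mm (PSp 2 K) 4 (Nat.card K) (Nat.card K) :=
  mm_triv (StRep.faithful_quot (faithful_spRep 2 K (by omega)) (spRep_Gp _ K)) (StRep.quot_Gp (spRep_Gp _ K))
    (StRep.center_quot (faithful_spRep 2 K (by omega)) (spRep_Gp _ K)) (i := 0) (j := 1) (by decide) (m := 1)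
    ((congrArg orderOf (mul_one _)).symm.trans (RootSys.orderOf_wp (cm := [[2, -2], [-1, 2]]) (l := [0, 1])
      (by simp only [cbC_car]; decide) (by decide +kernel)))

variable {K}

theorem mmU {n t : ℕ} (hn : n = 3 ∨ n = 4) (hK : Fintype.card K = q ^ 2) {φ : K →+* K}
    (h3 : ∀ t, φ t = t ^ q) (h4 : φ ≠ RingHom.id K) (h5 : ∀ t, φ (φ t) = t) (h6 : 1 ≤ n)
    (h : Nat.card (blk (twU h6 φ) ⟨1, by omega⟩) = t) : Mm (PSU (n + 1) K q) 4 t (q ^ 2) := by
  have M := lt0U (p := ringChar K) h6 hK h3 h4 h5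
  have := Agent.S0283.result hK (n + 1) (by omega) (by omega)
  have h7 : Nat.card (blk (twU h6 φ) ⟨0, by omega⟩) = q ^ 2 := by
    rw [← hK, ← Nat.card_eq_fintype_card]
    refine card_blk_pair Fin.rev_rev (fun e => ?_) ?_ fun t => ?_
    · have := congrArg Fin.val e
      change (Fin.rev _).val = _ at this; rw [Fin.val_rev] at this; dsimp only at this; omega
    · change (cbA n).car _ (Fin.rev _) = 0
      rw [cbA_car, if_neg, if_neg] <;> simp only [Fin.ext_iff, Fin.val_rev] <;> omega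
    · change suσ _ φ (suσ _ φ _) = _
      rw [suσ_x, suσ_x, map_neg, h5, _root_.neg_neg]
      exact congrArg₂ _ ((revA _).left_inv _) rfl
  have := mm_simple (form_quot M.form) (i := ⟨1, by omega⟩) (j := ⟨0, by omega⟩) (m := 1) (fun k => ?_) ?_
    (M.nonempty_equiv (nonempty_SU_equiv hK h3 h5 h6).some)
  · rwa [card_blk_quot, card_blk_quot, h, h7] at this
  · simp only [twQuot_S, twU_orb, Fin.ext_iff, Fin.val_rev]; omega
  rw [twQuot_S]
  rcases hn with rfl | rfl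
  · rw [s_eq_wp (l := [1]) (by simp only [twU_orb, Fin.ext_iff, Fin.val_rev]; decide) (by simp only [List.foldr, RootSys.cref, cbA_car]; decide),
      s_eq_wp (l := [0, 2]) (by simp only [twU_orb, Fin.ext_iff, Fin.val_rev]; decide)
        (by simp only [List.foldr, RootSys.cref, cbA_car]; decide), ← RootSys.wp_append]
    exact RootSys.orderOf_wp (cm := [[2, -1, 0], [-1, 2, -1], [0, -1, 2]]) (by simp only [cbA_car]; decide)
      (by decide +kernel)
  · rw [s_eq_wp (l := [1, 2, 1]) (by simp only [twU_orb, Fin.ext_iff, Fin.val_rev]; decide)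
        (by simp only [List.foldr, RootSys.cref, cbA_car]; decide),
      s_eq_wp (l := [0, 3]) (by simp only [twU_orb, Fin.ext_iff, Fin.val_rev]; decide)
        (by simp only [List.foldr, RootSys.cref, cbA_car]; decide), ← RootSys.wp_append]
    exact RootSys.orderOf_wp (cm := [[2, -1, 0, 0], [-1, 2, -1, 0], [0, -1, 2, -1], [0, 0, -1, 2]])
      (by simp only [cbA_car]; decide) (by decide +kernel)

theorem mmU4 (hK : Fintype.card K = q ^ 2) : Mm (PSU 4 K q) 4 q (q ^ 2) := by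
  obtain ⟨φ, h3, h4, h5⟩ := Geom.exists_conj hK
  have e : Fin.rev (⟨1, by omega⟩ : Fin 3) = ⟨1, by omega⟩ := rfl
  refine mmU (.inl rfl) hK h3 h4 h5 (by omega) ((card_blk_fix e).trans ((Nat.card_congr
    (Equiv.subtypeEquivRight fun t => ?_)).trans (Geom.card_skew_eq hK)))
  rw [Tw.mem_Fix, Tw.σ_x, Tw.π_simple, show (twU _ φ).p _ = _ from e,
    ((faithful_slRep _ K (by omega)).x_injective _).eq_iff, ← h3, ← neg_eq_iff_eq_neg]
  simp [twU]

theorem mmU5 (hK : Fintype.card K = q ^ 2) : Mm (PSU 5 K q) 4 (q ^ 3) (q ^ 2) := by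
  obtain ⟨φ, h3, h4, h2⟩ := Geom.exists_conj hK
  have hk' : 2 * (⟨1, by omega⟩ : Fin 4).val + 2 = 4 := rfl
  obtain ⟨h5, h6, h7, h8, h9, -⟩ := heisU_aux hk'
  refine mmU (.inr rfl) hK h3 h4 h2 (by omega) ((card_of_param (α := Σ t : K, {s // s + s ^ q = t * φ t})
    (fun x => heis h5 h6 h7 x.1 (-φ x.1) x.2) ?_ fun g => ?_).trans ?_)
  · rintro ⟨t, s, _⟩ ⟨t', s', _⟩ e
    obtain ⟨rfl, -, rfl⟩ := (heis_inj h5 h6 h7).1 e
    rfl
  · rw [blk, Subgroup.mem_inf, mem_blockU _ hk']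
    constructor
    · rintro ⟨⟨t, u, s, rfl⟩, hg⟩
      obtain ⟨-, rfl, hg⟩ := (heis_mem_Fix h5 h6 h7 _ h8 h9).1 hg
      exact ⟨⟨t, s, by rw [map_neg, h2] at hg; rw [← h3]; linear_combination -hg⟩, rfl⟩
    · rintro ⟨⟨t, s, hs⟩, rfl⟩
      exact ⟨⟨_, _, _, rfl⟩, (heis_mem_Fix h5 h6 h7 _ h8 h9).2 ⟨by simp [h2], rfl, by
        rw [map_neg, h2, h3 s]; linear_combination -hs⟩⟩
  · rw [Nat.card_sigma, Finset.sum_congr rfl fun t _ => Geom.card_trace_eq hK (by rw [← h3, map_mul, h2, mul_comm])]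
    simp [hK, pow_succ]

theorem not_simple_PSp42 (hK : Fintype.card K = 2) : ¬ IsSimpleGroup (PSp 2 K) := fun _ => by
  obtain ⟨e⟩ := CF.Classical.Sp_four_two_equiv (Nat.card_eq_fintype_card.trans hK)
  have h1 : ∀ z : Equiv.Perm (Fin 6), z ∈ Subgroup.center _ → z = 1 := fun z hz => Equiv.ext fun i => by
    by_contra h
    obtain ⟨j, h1, h2⟩ : ∃ j : Fin 6, j ≠ i ∧ j ≠ z i := (by decide : ∀ i k : Fin 6, ∃ j, j ≠ i ∧ j ≠ k) _ _
    have e := congrArg (· i) (Subgroup.mem_center_iff.1 hz (Equiv.swap j (z i)))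
    simp only [Equiv.Perm.mul_apply, Equiv.swap_apply_right] at e
    rw [Equiv.swap_apply_of_ne_of_ne h1.symm (fun e' => h e'.symm)] at e
    exact h2 e
  haveI := (CF.Classical.quotientCenterEquiv e).symm.isSimpleGroup
  haveI := (QuotientGroup.quotientBot.symm.trans (QuotientGroup.quotientMulEquivOfEq
    ((Subgroup.eq_bot_iff_forall _).2 h1).symm)).isSimpleGroup
  have c := two_mul_nat_card_alternatingGroup (α := Fin 6)
  rcases (alternatingGroup.normal (α := Fin 6)).eq_bot_or_eq_top with h | h <;> rw [h] at c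
  · rw [Subgroup.card_bot, Nat.card_perm, Nat.card_eq_fintype_card, Fintype.card_fin] at c
    exact absurd c (by decide)
  · rw [Subgroup.card_top] at c
    have := Nat.card_pos (α := Equiv.Perm (Fin 6)); omega

section

variable {I W : Type*} [Group W] [Finite W] {C : InvGen I W} {G X : Type*} [Group G] [Finite G] [MulAction G X]
  {T : TB C G X} {f : ℕ → I} {Y : Type*} [Group Y] {t s : ℕ}

theorem Mm.iso3 (L : Lb C 2 0 3 f) (M : T.Mo) (g : Gn T) (h : Mm Y 3 t s) (h0 : Nat.card (T.U (f 0)) = t) :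
    Nonempty (G ≃* Y) := by
  obtain ⟨Z, _, _, P, hf, f', ⟨e⟩, L', M', g', h2, -⟩ := h
  obtain ⟨F, hF⟩ := L.exists_is L' T.E (tb0 P hf).E
  rw [← hF 0 two_pos, ← F.tp_U] at h2
  obtain ⟨D, D', h⟩ := cp_three M (tp_mo F M') (lb_mm L) (h0.trans h2.symm)
  exact ⟨(iso_of_cp L M (tp_mo F M') g (tp_gn F g') h).some.trans e.symm⟩

theorem iso4 {I' W' G' X' : Type*} [Group W'] [Finite W'] {C' : InvGen I' W'} [Group G'] [Finite G'] [MulAction G' X']
    {T' : TB C' G' X'} {f' : ℕ → I'} (L : Lb C 2 0 4 f) (L' : Lb C' 2 0 4 f') (M : T.Mo) (M' : T'.Mo) (g : Gn T)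
    (g' : Gn T') (N : Nf (T.Xs (f 0) (f 1))) (N' : Nf (T'.Xs (f' 0) (f' 1)))
    (h0 : Nat.card (T.U (f 0)) = Nat.card (T'.U (f' 0))) (h1 : Nat.card (T.U (f 1)) = Nat.card (T'.U (f' 1))) :
    Nonempty (G ≃* G') := by
  obtain ⟨F, hF⟩ := L.exists_is L' T.E T'.E
  rw [← hF 0 two_pos, ← hF 1 one_lt_two, ← tp_Xs] at N'
  rw [← hF 0 two_pos, ← F.tp_U] at h0
  rw [← hF 1 one_lt_two, ← F.tp_U] at h1
  obtain ⟨D, D', h⟩ := cp_four' M (tp_mo F M') (lb_mm L) N N' h0 h1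
  exact iso_of_cp L M (tp_mo F M') g (tp_gn F g') h

theorem nf_le {i k : I} (M : T.Mo) (h : mm C i k = 4) (N : Nf (T.Xs i k)) : Nat.card (T.U k) ≤ Nat.card (T.U i) := by
  obtain ⟨q, h1, ⟨e, e'⟩ | ⟨e, e'⟩ | ⟨e, e'⟩⟩ := N.cardU M h <;> rw [e, e']
  exacts [Nat.le_self_pow two_ne_zero q, Nat.pow_le_pow_right h1.pos (by omega)]

theorem Mm.iso4 (L : Lb C 2 0 4 f) (M : T.Mo) (g : Gn T) (h : Mm Y 4 t s) (N : Nf (T.Xs (f 0) (f 1)))
    (h0 : Nat.card (T.U (f 0)) = t) (h1 : Nat.card (T.U (f 1)) = s) : Nonempty (G ≃* Y) := by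
  obtain ⟨Z, _, _, P, hf, f', ⟨e⟩, L', M', g', h2, h3⟩ := h
  rcases M'.nf4 (lb_mm L') with N' | N'
  · exact ⟨(Hx.iso4 L L' M M' g g' N N' (h0.trans h2.symm) (h1.trans h3.symm)).some.trans e.symm⟩
  have c := nf_le M (lb_mm L) N
  have c' := nf_le M' ((mm_symm _ _).trans (lb_mm L')) N'
  obtain rfl : s = t := by omega
  exact ⟨(Hx.iso4 L (lb_swap L') M M' g g' N N' (h0.trans h3.symm) (h1.trans h2.symm)).some.trans e.symm⟩

/-- finite Moufang quadrangles -/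
theorem quad_main (L : Lb C 2 0 4 f) (M : T.Mo) (g : Gn T) : ∃ q, IsPrimePow q ∧
    (Nat.card (T.U (f 0)) = q ∧ Nat.card (T.U (f 1)) = q ∧
      (∀ (K : Type) [Field K] [Fintype K], Fintype.card K = q → Nonempty (G ≃* PSp 2 K)) ∨
    (Nat.card (T.U (f 0)) = q ^ 2 ∧ Nat.card (T.U (f 1)) = q ∨
      Nat.card (T.U (f 0)) = q ∧ Nat.card (T.U (f 1)) = q ^ 2) ∧
      (∀ (K : Type) [Field K] [Fintype K], Fintype.card K = q ^ 2 → Nonempty (G ≃* PSU 4 K q)) ∨
    (Nat.card (T.U (f 0)) = q ^ 3 ∧ Nat.card (T.U (f 1)) = q ^ 2 ∨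
      Nat.card (T.U (f 0)) = q ^ 2 ∧ Nat.card (T.U (f 1)) = q ^ 3) ∧
      ∀ (K : Type) [Field K] [Fintype K], Fintype.card K = q ^ 2 → Nonempty (G ≃* PSU 5 K q)) := by
  wlog N : Nf (T.Xs (f 0) (f 1)) generalizing f
  · obtain ⟨q, h, h'⟩ := this (lb_swap L) ((M.nf4 (lb_mm L)).resolve_left N)
    exact ⟨q, h, h'.imp (fun k => ⟨k.2.1, k.1, k.2.2⟩) (Or.imp (fun k => ⟨(k.1.imp And.symm And.symm).symm, k.2⟩)
      fun k => ⟨(k.1.imp And.symm And.symm).symm, k.2⟩)⟩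
  obtain ⟨q, h, h'⟩ := N.cardU M (lb_mm L)
  exact ⟨q, h, h'.imp (fun e => ⟨e.1, e.2, fun K _ _ c =>
    (Nat.card_eq_fintype_card.trans c ▸ mmC2 K).iso4 L M g N e.1 e.2⟩) (Or.imp
      (fun e => ⟨.inl e, fun K _ _ c => (mmU4 c).swap.iso4 L M g N e.1 e.2⟩)
      fun e => ⟨.inl e, fun K _ _ c => (mmU5 c).iso4 L M g N e.1 e.2⟩)⟩

/-- finite Moufang triangles -/
theorem tri_main (L : Lb C 2 0 3 f) (M : T.Mo) (g : Gn T) : IsPSL G := by
  obtain ⟨F, _, _, x, y, z, A⟩ := M.exists_A2 (lb_mm L)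
  exact ⟨F, _, ‹_›, 3, by omega, by omega, (mmA2 F).iso3 L M g A.cU.card⟩

variable [IsSimpleGroup G] (M : T.Mo) {i k : I} (h : ∀ a, a = i ∨ a = k)
include M h

/-- a finite simple group acting as a Moufang group on a projective plane -/
theorem tri_iso (h3 : mm C i k = 3) : IsPSL G := tri_main (lb_of (ne_of_mm (n := 1) h3) h h3) M (gn_of M i)

/-- a finite simple group acting as a Moufang group on a generalized quadrangle -/
theorem quad_iso (h4 : mm C i k = 4) : IsPSp G ∨ IsPSU G := by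
  obtain ⟨q, hq, h | h | h⟩ := quad_main (lb_of (ne_of_mm (n := 2) h4) h h4) M (gn_of M i)
  · obtain ⟨K, _, _, c⟩ := exists_fld hq
    obtain ⟨e⟩ := h.2.2 K c
    exact .inl ⟨K, _, _, 2, le_rfl, fun _ => by
      have := mt not_simple_PSp42 (not_not.2 e.symm.isSimpleGroup)
      have := hq.one_lt; omega, ⟨e⟩⟩
  all_goals
    obtain ⟨K, _, _, c⟩ := exists_fld (hq.pow two_ne_zero)
    exact .inr ⟨K, _, _, _, q, c, by omega, by omega, h.2 K c⟩

end

end CF.Hx
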